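import Mathlib

/-!
# A fibre product used for Berger's theorem

For `K ⊴ G` and a homomorphism `q : E →* G`, the group `fib K q = {(x, y) ∈ G × E : x K = q(y) K}`.
When `q = H.subtype ∘ p` for `p : E →* H`, `K ∩ H = L` and `i : L →* E` is a section of `p` over
`L` compatible with conjugation, the preimage of `H` under the first projection maps to `E` by the
twisted projection `(x, y) ↦ y · i(q(y)⁻¹ x)`.
-/

set_option autoImplicit false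

namespace Cfsg.Agent.Lib.Helper15

section Fib

variable {G : Type*} [Group G] {E : Type*} [Group E]
variable (K : Subgroup G) [hK : K.Normal]

/-- The fibre product `G ×_{G/K} E`. -/
def fib (q : E →* G) : Subgroup (G × E) where
  carrier := {z | z.1⁻¹ * q z.2 ∈ K}
  one_mem' := by
    show (1 : G × E).1⁻¹ * q (1 : G × E).2 ∈ K
    simp
  mul_mem' := by
    intro a b ha hb
    show (a * b).1⁻¹ * q (a * b).2 ∈ K
    have e : (a * b).1⁻¹ * q (a * b).2 =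
        b.1⁻¹ * (a.1⁻¹ * q a.2) * b.1⁻¹⁻¹ * (b.1⁻¹ * q b.2) := by
      simp only [Prod.fst_mul, Prod.snd_mul, map_mul]
      group
    rw [e]
    exact K.mul_mem (hK.conj_mem _ ha _) hb
  inv_mem' := by
    intro a ha
    show (a⁻¹).1⁻¹ * q (a⁻¹).2 ∈ K
    have e : (a⁻¹).1⁻¹ * q (a⁻¹).2 = a.1 * (a.1⁻¹ * q a.2)⁻¹ * a.1⁻¹ := by
      simp only [Prod.fst_inv, Prod.snd_inv, map_inv]
      group
    rw [e]
    exact hK.conj_mem _ (K.inv_mem ha) _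

theorem mem_fib (q : E →* G) (z : G × E) : z ∈ fib K q ↔ z.1⁻¹ * q z.2 ∈ K := Iff.rfl

/-- First projection. -/
def fibFst (q : E →* G) : fib K q →* G := (MonoidHom.fst G E).comp (fib K q).subtype

/-- Second projection. -/
def fibSnd (q : E →* G) : fib K q →* E := (MonoidHom.snd G E).comp (fib K q).subtype

theorem fibFst_apply (q : E →* G) (z : fib K q) : fibFst K q z = z.1.1 := rfl

theorem fibSnd_apply (q : E →* G) (z : fib K q) : fibSnd K q z = z.1.2 := rfl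

theorem fibFst_surjective (q : E →* G) (hsurj : ∀ g : G, ∃ k ∈ K, ∃ y : E, g = k * q y) :
    Function.Surjective (fibFst K q) := by
  intro g
  obtain ⟨k, hk, y, rfl⟩ := hsurj g
  refine ⟨⟨(k * q y, y), ?_⟩, rfl⟩
  show (k * q y)⁻¹ * q y ∈ K
  have e : (k * q y)⁻¹ * q y = (q y)⁻¹ * k⁻¹ * (q y)⁻¹⁻¹ := by group
  rw [e]
  exact hK.conj_mem _ (K.inv_mem hk) _

variable (H L : Subgroup G) [hL : L.Normal] (hinf : K ⊓ H = L) (p : E →* H) (i : L →* E)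

include hinf in
theorem fib_twist_mem (z : H.comap (fibFst K (H.subtype.comp p))) :
    ((p z.1.1.2 : H) : G)⁻¹ * z.1.1.1 ∈ L := by
  rw [← hinf]
  refine ⟨?_, H.mul_mem (H.inv_mem (p z.1.1.2).2) z.2⟩
  have h1 : z.1.1.1⁻¹ * ((p z.1.1.2 : H) : G) ∈ K := z.1.2
  have h2 := K.inv_mem h1
  simpa using h2

include hinf in
theorem fib_proj_mem (hLK : L ≤ K) (z : fib K (H.subtype.comp p)) (hz : z.1.1 ∈ L) :
    ((p z.1.2 : H) : G) ∈ L := by
  rw [← hinf]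
  refine ⟨?_, (p z.1.2).2⟩
  have h1 : z.1.1⁻¹ * ((p z.1.2 : H) : G) ∈ K := z.2
  have h2 := K.mul_mem (hLK hz) h1
  simpa using h2

/-- The twisted projection `(x, y) ↦ y · i(q(y)⁻¹ x)` on the preimage of `H`. -/
def fibTwist
    (hconj : ∀ (y : E) (l : L) (h : ((p y : H) : G) * l * ((p y : H) : G)⁻¹ ∈ L),
      y * i l * y⁻¹ = i ⟨((p y : H) : G) * l * ((p y : H) : G)⁻¹, h⟩) :
    H.comap (fibFst K (H.subtype.comp p)) →* E where
  toFun z := z.1.1.2 * i ⟨((p z.1.1.2 : H) : G)⁻¹ * z.1.1.1, fib_twist_mem K H L hinf p z⟩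
  map_one' := by
    have h1 : (⟨((p (1 : H.comap (fibFst K (H.subtype.comp p))).1.1.2 : H) : G)⁻¹ *
        (1 : H.comap (fibFst K (H.subtype.comp p))).1.1.1,
        fib_twist_mem K H L hinf p 1⟩ : L) = 1 := by
      apply Subtype.ext
      show ((p (1 : E) : H) : G)⁻¹ * (1 : G) = 1
      simp
    rw [h1, map_one, mul_one]
    rfl
  map_mul' := by
    intro a b
    have hmem : ((p (b.1.1.2)⁻¹ : H) : G) *
        ((⟨((p a.1.1.2 : H) : G)⁻¹ * a.1.1.1, fib_twist_mem K H L hinf p a⟩ : L) : G) *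
        ((p (b.1.1.2)⁻¹ : H) : G)⁻¹ ∈ L := hL.conj_mem _ (fib_twist_mem K H L hinf p a) _
    have key := hconj (b.1.1.2)⁻¹
      ⟨((p a.1.1.2 : H) : G)⁻¹ * a.1.1.1, fib_twist_mem K H L hinf p a⟩ hmem
    have e : a.1.1.2 * i ⟨((p a.1.1.2 : H) : G)⁻¹ * a.1.1.1, fib_twist_mem K H L hinf p a⟩ *
        (b.1.1.2 * i ⟨((p b.1.1.2 : H) : G)⁻¹ * b.1.1.1, fib_twist_mem K H L hinf p b⟩) =
        a.1.1.2 * b.1.1.2 * (((b.1.1.2)⁻¹ *
          i ⟨((p a.1.1.2 : H) : G)⁻¹ * a.1.1.1, fib_twist_mem K H L hinf p a⟩ * (b.1.1.2)⁻¹⁻¹) *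
          i ⟨((p b.1.1.2 : H) : G)⁻¹ * b.1.1.1, fib_twist_mem K H L hinf p b⟩) := by group
    rw [e, key, ← map_mul]
    show (a.1.1.2 * b.1.1.2) * i ⟨((p (a.1.1.2 * b.1.1.2) : H) : G)⁻¹ * (a.1.1.1 * b.1.1.1), _⟩ = _
    congr 2
    apply Subtype.ext
    simp only [map_mul, map_inv, Subgroup.coe_mul, Subgroup.coe_inv, Subgroup.coe_mk]
    group

theorem fibTwist_apply
    (hconj : ∀ (y : E) (l : L) (h : ((p y : H) : G) * l * ((p y : H) : G)⁻¹ ∈ L),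
      y * i l * y⁻¹ = i ⟨((p y : H) : G) * l * ((p y : H) : G)⁻¹, h⟩)
    (z : H.comap (fibFst K (H.subtype.comp p))) :
    fibTwist K H L hinf p i hconj z =
      z.1.1.2 * i ⟨((p z.1.1.2 : H) : G)⁻¹ * z.1.1.1, fib_twist_mem K H L hinf p z⟩ := rfl

theorem fibTwist_surjective
    (hconj : ∀ (y : E) (l : L) (h : ((p y : H) : G) * l * ((p y : H) : G)⁻¹ ∈ L),
      y * i l * y⁻¹ = i ⟨((p y : H) : G) * l * ((p y : H) : G)⁻¹, h⟩) :
    Function.Surjective (fibTwist K H L hinf p i hconj) := by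
  intro y
  have hmem : (((p y : H) : G), y) ∈ fib K (H.subtype.comp p) := by
    show ((p y : H) : G)⁻¹ * ((p y : H) : G) ∈ K
    rw [inv_mul_cancel]
    exact K.one_mem
  refine ⟨⟨⟨(((p y : H) : G), y), hmem⟩, (p y).2⟩, ?_⟩
  rw [fibTwist_apply]
  have h1 : (⟨((p y : H) : G)⁻¹ * ((p y : H) : G),
      fib_twist_mem K H L hinf p ⟨⟨(((p y : H) : G), y), hmem⟩, (p y).2⟩⟩ : L) = 1 := by
    apply Subtype.ext
    show ((p y : H) : G)⁻¹ * ((p y : H) : G) = 1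
    rw [inv_mul_cancel]
  show y * i ⟨((p y : H) : G)⁻¹ * ((p y : H) : G), _⟩ = y
  rw [h1, map_one, mul_one]

theorem proj_fibTwist
    (hconj : ∀ (y : E) (l : L) (h : ((p y : H) : G) * l * ((p y : H) : G)⁻¹ ∈ L),
      y * i l * y⁻¹ = i ⟨((p y : H) : G) * l * ((p y : H) : G)⁻¹, h⟩)
    (hpi : ∀ l : L, ((p (i l) : H) : G) = l)
    (z : H.comap (fibFst K (H.subtype.comp p))) :
    ((p (fibTwist K H L hinf p i hconj z) : H) : G) = z.1.1.1 := by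
  rw [fibTwist_apply, map_mul, Subgroup.coe_mul, hpi]
  simp

/-- The copy `L × 1` of `L`. -/
def fibIncl (hLK : L ≤ K) : L →* fib K (H.subtype.comp p) where
  toFun l := ⟨((l : G), 1), by
    show (l : G)⁻¹ * (H.subtype.comp p) 1 ∈ K
    rw [map_one, mul_one]
    exact K.inv_mem (hLK l.2)⟩
  map_one' := rfl
  map_mul' a b := Subtype.ext (Prod.ext rfl (mul_one 1).symm)

theorem fibIncl_conj (hLK : L ≤ K) (z : fib K (H.subtype.comp p)) (l : L) :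
    z * fibIncl K H L p hLK l * z⁻¹ =
      fibIncl K H L p hLK ⟨z.1.1 * l * z.1.1⁻¹, hL.conj_mem l l.2 _⟩ := by
  apply Subtype.ext
  apply Prod.ext
  · rfl
  · show z.1.2 * 1 * z.1.2⁻¹ = 1
    simp

theorem fibIncl_range_normal (hLK : L ≤ K) : (fibIncl K H L p hLK).range.Normal := by
  refine ⟨fun x hx g => ?_⟩
  obtain ⟨l, rfl⟩ := hx
  exact ⟨_, (fibIncl_conj K H L p hLK g l).symm⟩

include hinf in
theorem fibIncl_range_le (hLK : L ≤ K) :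
    (fibIncl K H L p hLK).range ≤ H.comap (fibFst K (H.subtype.comp p)) := by
  rintro _ ⟨l, rfl⟩
  show (l : G) ∈ H
  have : (l : G) ∈ K ⊓ H := by
    rw [hinf]
    exact l.2
  exact this.2

theorem fibTwist_incl (hLK : L ≤ K)
    (hconj : ∀ (y : E) (l : L) (h : ((p y : H) : G) * l * ((p y : H) : G)⁻¹ ∈ L),
      y * i l * y⁻¹ = i ⟨((p y : H) : G) * l * ((p y : H) : G)⁻¹, h⟩)
    (l : L) (h : fibIncl K H L p hLK l ∈ H.comap (fibFst K (H.subtype.comp p))) :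
    fibTwist K H L hinf p i hconj ⟨fibIncl K H L p hLK l, h⟩ = i l := by
  rw [fibTwist_apply]
  show (1 : E) * i ⟨((p (1 : E) : H) : G)⁻¹ * (l : G), _⟩ = i l
  rw [one_mul]
  congr 1
  apply Subtype.ext
  simp

theorem fibTwist_of_mem
    (hconj : ∀ (y : E) (l : L) (h : ((p y : H) : G) * l * ((p y : H) : G)⁻¹ ∈ L),
      y * i l * y⁻¹ = i ⟨((p y : H) : G) * l * ((p y : H) : G)⁻¹, h⟩)
    (z : H.comap (fibFst K (H.subtype.comp p))) (hz : z.1.1.1 ∈ L)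
    (hz' : ((p z.1.1.2 : H) : G) ∈ L) :
    fibTwist K H L hinf p i hconj z =
      (z.1.1.2 * (i ⟨((p z.1.1.2 : H) : G), hz'⟩)⁻¹) * i ⟨z.1.1.1, hz⟩ := by
  rw [fibTwist_apply, mul_assoc, ← map_inv, ← map_mul]
  rfl

theorem fib_aux (hcent : ∀ z y : E, p z = 1 → z * y = y * z)
    (hpi : ∀ l : L, ((p (i l) : H) : G) = l)
    (hconj : ∀ (y : E) (l : L) (h : ((p y : H) : G) * l * ((p y : H) : G)⁻¹ ∈ L),
      y * i l * y⁻¹ = i ⟨((p y : H) : G) * l * ((p y : H) : G)⁻¹, h⟩)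
    (y y' : E) (l₀ : L) (hl₀ : ((p y' : H) : G) = l₀) (l₁ : L)
    (hl₁ : (l₁ : G) = ((p (y * y' * y⁻¹) : H) : G)) :
    y * y' * y⁻¹ * (i l₁)⁻¹ = y' * (i l₀)⁻¹ := by
  have hw : p (y' * (i l₀)⁻¹) = 1 := by
    rw [map_mul, map_inv, mul_inv_eq_one]
    apply Subtype.ext
    rw [hl₀, hpi]
  have hc := hcent (y' * (i l₀)⁻¹) y hw
  have hmem : ((p y : H) : G) * l₀ * ((p y : H) : G)⁻¹ ∈ L := hL.conj_mem l₀ l₀.2 _
  have e1 : y * y' * y⁻¹ = (y' * (i l₀)⁻¹) * (y * i l₀ * y⁻¹) := by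
    calc y * y' * y⁻¹ = (y * (y' * (i l₀)⁻¹)) * i l₀ * y⁻¹ := by group
      _ = ((y' * (i l₀)⁻¹) * y) * i l₀ * y⁻¹ := by rw [hc]
      _ = (y' * (i l₀)⁻¹) * (y * i l₀ * y⁻¹) := by group
  have e2 : l₁ = ⟨((p y : H) : G) * l₀ * ((p y : H) : G)⁻¹, hmem⟩ := by
    apply Subtype.ext
    rw [hl₁]
    simp [hl₀]
  rw [e1, hconj y l₀ hmem, e2]
  group

theorem fibTwist_conj (hLK : L ≤ K) (hcent : ∀ z y : E, p z = 1 → z * y = y * z)
    (hpi : ∀ l : L, ((p (i l) : H) : G) = l)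
    (hconj : ∀ (y : E) (l : L) (h : ((p y : H) : G) * l * ((p y : H) : G)⁻¹ ∈ L),
      y * i l * y⁻¹ = i ⟨((p y : H) : G) * l * ((p y : H) : G)⁻¹, h⟩)
    (g : fib K (H.subtype.comp p)) (z : H.comap (fibFst K (H.subtype.comp p)))
    (hz : z.1.1.1 ∈ L) (hz' : ((p z.1.1.2 : H) : G) ∈ L)
    (hgz : g * z.1 * g⁻¹ ∈ H.comap (fibFst K (H.subtype.comp p)))
    (h : g.1.1 * z.1.1.1 * g.1.1⁻¹ ∈ L) :
    fibTwist K H L hinf p i hconj ⟨g * z.1 * g⁻¹, hgz⟩ =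
      (z.1.1.2 * (i ⟨((p z.1.1.2 : H) : G), hz'⟩)⁻¹) * i ⟨g.1.1 * z.1.1.1 * g.1.1⁻¹, h⟩ := by
  have hz'' : ((p (g * z.1 * g⁻¹).1.2 : H) : G) ∈ L :=
    fib_proj_mem K H L hinf p hLK (g * z.1 * g⁻¹) h
  rw [fibTwist_of_mem K H L hinf p i hconj ⟨g * z.1 * g⁻¹, hgz⟩ h hz'']
  congr 1
  exact fib_aux H L p i hcent hpi hconj g.1.2 z.1.1.2 ⟨((p z.1.1.2 : H) : G), hz'⟩ rfl
    ⟨((p (g * z.1 * g⁻¹).1.2 : H) : G), hz''⟩ rfl

end Fib

end Cfsg.Agent.Lib.Helper15
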