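import Mathlib
import Cfsg.Prelude.Def_Characters
import Cfsg.Agent.Lib.Helper3.IndFun
import Cfsg.Agent.Lib.Helper80.CharOps
import Cfsg.Agent.Lib.Helper80.CharKer
import Cfsg.Agent.Lib.Helper81.MinNormal
import Cfsg.Agent.Lib.Helper81.Dornhoff
import Cfsg.Agent.Lib.Helper81.GoingDown
import Cfsg.Agent.Lib.Helper75.Gallagher
import Cfsg.Agent.Lib.Helper15.Mackey

/-!
# Kernels of induced characters, descent along a surjection, and irreducibility criteria

* `mem_of_indFun_eq_one`: if `ω^G(n) = ω^G(1)` then `n ∈ T` and `ω(n) = ω(1)`.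
* `exists_char_of_surjective`: a character constant on the kernel of a surjection factors.
* `descent`: if `ω^𝔾 = χ ∘ π` for a surjection `π : 𝔾 → G`, then `χ` is induced from `π(T')`.
* `isIrr_of_mul_isIrr`: if a product of two characters is irreducible so are the factors.
* `isIrr_of_indFun_isIrr`: a character with irreducible induction is irreducible.
* `isCoatom_comap_of_surjective`: preimages of maximal subgroups under surjections are maximal.
-/

set_option autoImplicit false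

namespace Cfsg.Agent.Lib.Helper15

open scoped ComplexConjugate

universe u

/-- `indFun` along an equality of subgroups. -/
theorem indFun_congr_subgroup {G : Type*} [Group G] [Fintype G] {A B : Subgroup G} (h : A = B)
    (f : A → ℂ) (g : B → ℂ) (hfg : ∀ (a : G) (ha : a ∈ A), f ⟨a, ha⟩ = g ⟨a, h ▸ ha⟩) :
    Cfsg.indFun A f = Cfsg.indFun B g := by
  subst h
  congr 1
  funext ⟨a, ha⟩
  exact hfg a ha

/-- If an induced character takes its degree at `n`, then `n` lies in the subgroup and in the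
kernel of the inducing character. -/
theorem mem_of_indFun_eq_one {G : Type*} [Group G] [Fintype G] (T : Subgroup G) {ω : T → ℂ}
    (hω : Cfsg.IsCharacter T ω) (hω1 : ω 1 ≠ 0) (n : G)
    (h : Cfsg.indFun T ω n = Cfsg.indFun T ω 1) : ∃ hn : n ∈ T, ω ⟨n, hn⟩ = ω 1 := by
  classical
  have : Finite T := inferInstance
  have hT0 : (Nat.card T : ℂ) ≠ 0 := by exact_mod_cast (Nat.card_pos (α := T)).ne'
  have hsum : ∑ x : G, Cfsg.extendByZero T ω (x⁻¹ * n * x) =
      ∑ x : G, Cfsg.extendByZero T ω (x⁻¹ * 1 * x) := by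
    unfold Cfsg.indFun at h
    exact mul_left_cancel₀ (inv_ne_zero hT0) h
  have hd : ω 1 = (Cfsg.charDegree ω : ℂ) := Cfsg.Agent.Lib.Helper80.char_one_eq_charDegree hω
  have hone : ∀ x : G, Cfsg.extendByZero T ω (x⁻¹ * 1 * x) = (Cfsg.charDegree ω : ℂ) := by
    intro x
    have h1 : x⁻¹ * 1 * x ∈ T := by simp
    rw [Cfsg.Agent.Lib.Helper3.extendByZero_of_mem T ω h1, ← hd]
    congr 1
    apply Subtype.ext
    simp
  have hre : ∀ x : G, (Cfsg.extendByZero T ω (x⁻¹ * n * x)).re ≤ (Cfsg.charDegree ω : ℝ) := by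
    intro x
    by_cases hx : x⁻¹ * n * x ∈ T
    · rw [Cfsg.Agent.Lib.Helper3.extendByZero_of_mem T ω hx]
      exact le_trans (Complex.re_le_norm _) (Cfsg.Agent.Lib.Helper80.norm_char_le_charDegree hω _)
    · rw [Cfsg.Agent.Lib.Helper3.extendByZero_of_not_mem T ω hx]
      simp
  have hsumre : ∑ x : G, (Cfsg.extendByZero T ω (x⁻¹ * n * x)).re =
      ∑ _x : G, (Cfsg.charDegree ω : ℝ) := by
    have h2 := congrArg Complex.re hsum
    rw [Complex.re_sum, Complex.re_sum] at h2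
    rw [h2]
    refine Finset.sum_congr rfl fun x _ => ?_
    rw [hone]
    simp
  have hall := (Finset.sum_eq_sum_iff_of_le (fun x _ => hre x)).mp hsumre
  have h1 := hall 1 (Finset.mem_univ _)
  simp only [inv_one, one_mul, mul_one] at h1
  have hdpos : (0 : ℝ) < Cfsg.charDegree ω := by
    have h0 : Cfsg.charDegree ω ≠ 0 := by
      intro h0
      apply hω1
      rw [hd, h0]
      simp
    exact_mod_cast Nat.pos_of_ne_zero h0
  have hn : n ∈ T := by
    by_contra hn
    rw [Cfsg.Agent.Lib.Helper3.extendByZero_of_not_mem T ω hn] at h1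
    simp at h1
    linarith
  refine ⟨hn, ?_⟩
  rw [Cfsg.Agent.Lib.Helper3.extendByZero_of_mem T ω hn] at h1
  have hnorm := Cfsg.Agent.Lib.Helper80.norm_char_le_charDegree hω ⟨n, hn⟩
  have h2 : ‖ω ⟨n, hn⟩‖ ^ 2 = (ω ⟨n, hn⟩).re * (ω ⟨n, hn⟩).re +
      (ω ⟨n, hn⟩).im * (ω ⟨n, hn⟩).im := by
    rw [Complex.sq_norm, Complex.normSq_apply]
  have h3 : ‖ω ⟨n, hn⟩‖ ^ 2 ≤ (Cfsg.charDegree ω : ℝ) ^ 2 :=
    pow_le_pow_left₀ (norm_nonneg _) hnorm 2
  rw [h2, h1] at h3
  have h4 : (ω ⟨n, hn⟩).im * (ω ⟨n, hn⟩).im ≤ 0 := by nlinarith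
  have h5 : (ω ⟨n, hn⟩).im = 0 := by
    have := mul_self_nonneg (ω ⟨n, hn⟩).im
    exact mul_self_eq_zero.mp (le_antisymm h4 this)
  rw [hd]
  apply Complex.ext
  · simpa using h1
  · simpa using h5

/-- A character that is constant (equal to its degree) on the kernel of a surjective
homomorphism factors through it. -/
theorem exists_char_of_surjective {A B : Type*} [Group A] [Finite A] [Group B] (f : A →* B)
    (hf : Function.Surjective f) {ω : A → ℂ} (hω : Cfsg.IsCharacter A ω)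
    (hker : ∀ a, f a = 1 → ω a = ω 1) :
    ∃ ω₀ : B → ℂ, Cfsg.IsCharacter B ω₀ ∧ ∀ a, ω₀ (f a) = ω a := by
  obtain ⟨ψ, hψ, hψω⟩ := Cfsg.Agent.Lib.Helper80.exists_isCharacter_deflate f.ker hω
    (fun x hx => hker x (MonoidHom.mem_ker.mp hx))
  refine ⟨fun b => ψ ((QuotientGroup.quotientKerEquivOfSurjective f hf).symm b),
    Cfsg.Agent.Lib.Helper80.isCharacter_comp
      (QuotientGroup.quotientKerEquivOfSurjective f hf).symm.toMonoidHom hψ, fun a => ?_⟩
  have h1 : (QuotientGroup.quotientKerEquivOfSurjective f hf).symm (f a) = (a : A ⧸ f.ker) := by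
    rw [MulEquiv.symm_apply_eq]
    rfl
  show ψ ((QuotientGroup.quotientKerEquivOfSurjective f hf).symm (f a)) = ω a
  rw [h1, hψω]

/-- Descent of induction along a surjection. -/
theorem descent {𝔾 G : Type*} [Group 𝔾] [Fintype 𝔾] [Group G] [Fintype G] (π : 𝔾 →* G)
    (hπ : Function.Surjective π) (T' : Subgroup 𝔾) {ω : T' → ℂ} (hω : Cfsg.IsCharacter T' ω)
    (χ : G → ℂ) (hχ1 : χ 1 ≠ 0) (h : ∀ x, Cfsg.indFun T' ω x = χ (π x)) :
    ∃ (T : Subgroup G) (ω₀ : T → ℂ), Cfsg.IsCharacter T ω₀ ∧ Cfsg.indFun T ω₀ = χ ∧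
      T.comap π = T' := by
  classical
  have hω1 : ω 1 ≠ 0 := by
    intro h0
    have h1 := h 1
    rw [Cfsg.Agent.Lib.Helper80.indFun_one, h0, mul_zero, map_one] at h1
    exact hχ1 h1.symm
  have hker : ∀ n : 𝔾, π n = 1 → ∃ hn : n ∈ T', ω ⟨n, hn⟩ = ω 1 := by
    intro n hn
    apply mem_of_indFun_eq_one T' hω hω1
    rw [h, h, hn, map_one]
  have hkerle : π.ker ≤ T' := fun n hn => (hker n (MonoidHom.mem_ker.mp hn)).1
  have hcomap : (T'.map π).comap π = T' := Subgroup.comap_map_eq_self hkerle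
  have : Finite T' := inferInstance
  obtain ⟨ω₀, hω₀, hω₀ω⟩ := exists_char_of_surjective (π.subgroupMap T')
    (π.subgroupMap_surjective T') hω
    (fun a ha => by
      have ha' : π (a : 𝔾) = 1 := by
        have := congrArg (fun t : T'.map π => (t : G)) ha
        simpa using this
      obtain ⟨hn, hval⟩ := hker a ha'
      exact hval)
  refine ⟨T'.map π, ω₀, hω₀, ?_, hcomap⟩
  funext g
  obtain ⟨x, rfl⟩ := hπ g
  rw [← h x]
  have hsurj : ∀ g : G, ∃ u : 𝔾, ∃ t ∈ T'.map π, g = π u * t := fun g => by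
    obtain ⟨u, rfl⟩ := hπ g
    exact ⟨u, 1, Subgroup.one_mem _, (mul_one _).symm⟩
  rw [indFun_comp_hom π (T'.map π) hsurj ω₀
    (Cfsg.Agent.Lib.Helper80.isClassFunction_of_isCharacter hω₀) x]
  apply congrFun
  apply indFun_congr_subgroup hcomap
  intro a ha
  exact hω₀ω ⟨a, hcomap ▸ ha⟩

/-- The inner product on a direct product of a group with itself. -/
theorem classInner_prod {G : Type*} [Group G] [Fintype G] (α β γ δ : G → ℂ) :
    Cfsg.classInner (fun z : G × G => α z.1 * γ z.2) (fun z : G × G => β z.1 * δ z.2) =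
      Cfsg.classInner α β * Cfsg.classInner γ δ := by
  unfold Cfsg.classInner
  rw [Nat.card_prod, Fintype.sum_prod_type]
  have h1 : ∀ x y : G, α x * γ y * conj (β x * δ y) =
      (α x * conj (β x)) * (γ y * conj (δ y)) := by
    intro x y
    rw [map_mul]
    ring
  simp only [h1]
  rw [← Finset.sum_mul_sum]
  push_cast
  rw [mul_inv]
  ring

/-- Multiplying two characters with a common constituent by a third character keeps a common
constituent. -/
theorem classInner_mul_ne_zero {G : Type u} [Group G] [Fintype G] {α β γ : G → ℂ}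
    (hα : Cfsg.IsCharacter G α) (hβ : Cfsg.IsCharacter G β) (hγ : Cfsg.IsCharacter G γ)
    (hne : Cfsg.classInner α β ≠ 0) (hγ1 : γ 1 ≠ 0) : Cfsg.classInner (α * γ) (β * γ) ≠ 0 := by
  have hγγ : Cfsg.classInner γ γ ≠ 0 := by
    intro h0
    have := Cfsg.Agent.Lib.Helper75.eq_zero_of_classInner_self h0
    exact hγ1 (by rw [this]; rfl)
  have hA : Cfsg.IsCharacter (G × G) (fun z : G × G => α z.1 * γ z.2) :=
    Cfsg.Agent.Lib.Helper80.isCharacter_mul
      (Cfsg.Agent.Lib.Helper80.isCharacter_comp (MonoidHom.fst G G) hα)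
      (Cfsg.Agent.Lib.Helper80.isCharacter_comp (MonoidHom.snd G G) hγ)
  have hB : Cfsg.IsCharacter (G × G) (fun z : G × G => β z.1 * γ z.2) :=
    Cfsg.Agent.Lib.Helper80.isCharacter_mul
      (Cfsg.Agent.Lib.Helper80.isCharacter_comp (MonoidHom.fst G G) hβ)
      (Cfsg.Agent.Lib.Helper80.isCharacter_comp (MonoidHom.snd G G) hγ)
  have hne2 : Cfsg.classInner (fun z : G × G => α z.1 * γ z.2)
      (fun z : G × G => β z.1 * γ z.2) ≠ 0 := by
    rw [classInner_prod]
    exact mul_ne_zero hne hγγ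
  obtain ⟨c, hc, h⟩ := Cfsg.Agent.Lib.Helper81.classInner_restrict_pos
    ((MonoidHom.id G).prod (MonoidHom.id G)) hA hB hne2
  have h' : Cfsg.classInner (α * γ) (β * γ) = c := h
  rw [h']
  exact_mod_cast (by omega : c ≠ 0)

/-- If the product of two characters is irreducible, the first factor is irreducible. -/
theorem isIrr_of_mul_isIrr {G : Type u} [Group G] [Fintype G] {χ₀ γ : G → ℂ}
    (h₀ : Cfsg.IsCharacter G χ₀) (hγ : Cfsg.IsCharacter G γ)
    (h : Cfsg.IsIrrCharacter G (χ₀ * γ)) : Cfsg.IsIrrCharacter G χ₀ := by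
  classical
  have : Fintype (Cfsg.IrrCharacter G) := Fintype.ofFinite _
  have h1 : (χ₀ * γ) 1 ≠ 0 := Cfsg.Agent.Lib.Helper80.char_one_ne_zero h
  have h01 : χ₀ 1 ≠ 0 := fun h0 => h1 (by simp [h0])
  have hγ1 : γ 1 ≠ 0 := fun h0 => h1 (by simp [h0])
  obtain ⟨ξ, hξ, hne⟩ := Cfsg.Agent.Lib.Helper81.exists_constituent81 h₀ h01
  have hξc := Cfsg.Agent.Lib.Helper80.isCharacter_of_isIrrCharacter hξ
  have hne' : Cfsg.classInner ξ χ₀ ≠ 0 := by
    rw [← Cfsg.Agent.Lib.Helper80.classInner_conj_symm]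
    simpa using hne
  have hne2 := classInner_mul_ne_zero hξc h₀ hγ hne' hγ1
  have hdeg1 : Cfsg.charDegree ξ ≤ Cfsg.charDegree χ₀ :=
    Cfsg.Agent.Lib.Helper81.charDegree_le_of_constituent h₀ hξ hne
  have hdegmul : ∀ {a : G → ℂ}, Cfsg.IsCharacter G a →
      Cfsg.charDegree (a * γ) = Cfsg.charDegree a * Cfsg.charDegree γ := by
    intro a ha
    have h1 := Cfsg.Agent.Lib.Helper80.char_one_eq_charDegree
      (Cfsg.Agent.Lib.Helper80.isCharacter_mul ha hγ)
    have h2 := Cfsg.Agent.Lib.Helper80.char_one_eq_charDegree ha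
    have h3 := Cfsg.Agent.Lib.Helper80.char_one_eq_charDegree hγ
    rw [Pi.mul_apply, h2, h3] at h1
    exact_mod_cast h1.symm
  have hdeg2 : Cfsg.charDegree (ξ * γ) ≤ Cfsg.charDegree (χ₀ * γ) := by
    rw [hdegmul hξc, hdegmul h₀]
    exact Nat.mul_le_mul_right _ hdeg1
  have heq := Cfsg.Agent.Lib.Helper80.eq_of_constituent_of_degree_le
    (Cfsg.Agent.Lib.Helper80.isCharacter_mul hξc hγ) h hne2 hdeg2
  have hdeg3 : Cfsg.charDegree χ₀ ≤ Cfsg.charDegree ξ := by
    have h4 := congrArg Cfsg.charDegree heq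
    rw [hdegmul hξc, hdegmul h₀] at h4
    have hγpos : 0 < Cfsg.charDegree γ := by
      rcases Nat.eq_zero_or_pos (Cfsg.charDegree γ) with h0 | h0
      · exfalso
        apply hγ1
        rw [Cfsg.Agent.Lib.Helper80.char_one_eq_charDegree hγ, h0]
        simp
      · exact h0
    exact (Nat.eq_of_mul_eq_mul_right hγpos h4).ge
  have h5 := Cfsg.Agent.Lib.Helper80.eq_of_constituent_of_degree_le h₀ hξ hne hdeg3
  rw [h5]
  exact hξ

/-- A character whose induction is irreducible is irreducible. -/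
theorem isIrr_of_indFun_isIrr {G : Type u} [Group G] [Fintype G] (H : Subgroup G) {ϑ : H → ℂ}
    (hϑ : Cfsg.IsCharacter H ϑ) (h : Cfsg.IsIrrCharacter G (Cfsg.indFun H ϑ)) :
    Cfsg.IsIrrCharacter H ϑ := by
  classical
  have : Fintype H := Fintype.ofFinite H
  have : Fintype (Cfsg.IrrCharacter G) := Fintype.ofFinite _
  have : Fintype (Cfsg.IrrCharacter H) := Fintype.ofFinite _
  have hχc := Cfsg.Agent.Lib.Helper80.isCharacter_of_isIrrCharacter h
  have hχcl := Cfsg.Agent.Lib.Helper80.isClassFunction_of_isCharacter hχc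
  have hfrob := Cfsg.Agent.Lib.Helper80.frobenius_reciprocity H ϑ (Cfsg.indFun H ϑ) hχcl
  rw [Cfsg.Agent.Lib.Helper80.classInner_self h] at hfrob
  have hne : Cfsg.classInner ϑ (fun h : H => Cfsg.indFun H ϑ h) ≠ 0 := by
    rw [← hfrob]
    exact one_ne_zero
  obtain ⟨ξ, hξ, hξ1, hξ2⟩ := Cfsg.Agent.Lib.Helper81.exists_common_constituent
    (Cfsg.Agent.Lib.Helper80.isCharacter_restrict H hχc) hne
  have hξc := Cfsg.Agent.Lib.Helper80.isCharacter_of_isIrrCharacter hξ
  have hindξ : Cfsg.classInner (Cfsg.indFun H ξ) (Cfsg.indFun H ϑ) ≠ 0 := by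
    rw [Cfsg.Agent.Lib.Helper80.frobenius_reciprocity H ξ (Cfsg.indFun H ϑ) hχcl,
      ← Cfsg.Agent.Lib.Helper80.classInner_conj_symm]
    simpa using hξ2
  have hdeg1 : Cfsg.charDegree ξ ≤ Cfsg.charDegree ϑ :=
    Cfsg.Agent.Lib.Helper81.charDegree_le_of_constituent hϑ hξ hξ1
  have hdegind : ∀ {a : H → ℂ}, Cfsg.IsCharacter H a →
      Cfsg.charDegree (Cfsg.indFun H a) = H.index * Cfsg.charDegree a := by
    intro a ha
    have h1 := Cfsg.Agent.Lib.Helper80.char_one_eq_charDegree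
      (Cfsg.Agent.Lib.Helper80.isCharacter_indFun H ha)
    rw [Cfsg.Agent.Lib.Helper80.indFun_one, Cfsg.Agent.Lib.Helper80.char_one_eq_charDegree ha]
      at h1
    exact_mod_cast h1.symm
  have hdeg2 : Cfsg.charDegree (Cfsg.indFun H ξ) ≤ Cfsg.charDegree (Cfsg.indFun H ϑ) := by
    rw [hdegind hξc, hdegind hϑ]
    exact Nat.mul_le_mul_left _ hdeg1
  have heq := Cfsg.Agent.Lib.Helper80.eq_of_constituent_of_degree_le
    (Cfsg.Agent.Lib.Helper80.isCharacter_indFun H hξc) h hindξ hdeg2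
  have hdeg3 : Cfsg.charDegree ϑ ≤ Cfsg.charDegree ξ := by
    have h4 := congrArg Cfsg.charDegree heq
    rw [hdegind hξc, hdegind hϑ] at h4
    exact (Nat.eq_of_mul_eq_mul_left
      (Nat.pos_of_ne_zero Subgroup.index_ne_zero_of_finite) h4).ge
  have h5 := Cfsg.Agent.Lib.Helper80.eq_of_constituent_of_degree_le hϑ hξ hξ1 hdeg3
  rw [h5]
  exact hξ

/-- The preimage of a maximal subgroup under a surjective homomorphism is maximal. -/
theorem isCoatom_comap_of_surjective {𝔾 G : Type*} [Group 𝔾] [Group G] (π : 𝔾 →* G)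
    (hπ : Function.Surjective π) {H : Subgroup G} (hH : IsCoatom H) : IsCoatom (H.comap π) := by
  refine ⟨fun h => hH.1 ?_, fun X hX => ?_⟩
  · rw [← Subgroup.map_comap_eq_self_of_surjective hπ H, h]
    exact Subgroup.map_top_of_surjective π hπ
  · have hker : π.ker ≤ X := le_trans (Subgroup.ker_le_comap π H) hX.le
    have hXeq : (X.map π).comap π = X := Subgroup.comap_map_eq_self hker
    have hlt : H < X.map π := by
      rw [← Subgroup.comap_lt_comap_of_surjective hπ, hXeq]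
      exact hX
    have h2 := hH.2 _ hlt
    rw [← hXeq, h2, Subgroup.comap_top]

end Cfsg.Agent.Lib.Helper15
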