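import Mathlib
import Cfsg.Agent.Lib.Helper10.PrimSolv

/-!
# Chief factors over a normal subgroup with solvable quotient

Group-theoretic input for Isaacs 11.32 / Berger's theorem, phrased without quotient groups:

* `card_map_mk_mul`: `|K L / L| |L| = |K|` for `L ≤ K`.
* `exists_chief_over`: if `G / L` is solvable and `L ≠ ⊤` there is `K ⊴ G` minimal over `L`, with
  `K / L` abelian of prime power order.
* `exists_central_mod`: if `|K : L|` and `|Q : L|` are powers of the same prime (`K ≠ L`), some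
  `k ∈ K \ L` satisfies `[k, Q] ≤ L`.
* `commutator_le_of_minimal`: from one such element to all of `K` when `K` is minimal over `L`.
* `le_normalCore_of_commutator_le`: `[K, Q] ≤ L ≤ Q ≤ H`, `Q` normalised by `H`, `G = K H`
  imply `Q ≤ core_G(H)`.
-/

set_option autoImplicit false

namespace Cfsg.Agent.Lib.Helper15

section

variable {G : Type*} [Group G] [Finite G]

/-- `|K L / L| · |L| = |K|` for `L ≤ K`. -/
theorem card_map_mk_mul (L : Subgroup G) [L.Normal] (K : Subgroup G) (hLK : L ≤ K) :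
    Nat.card (K.map (QuotientGroup.mk' L)) * Nat.card L = Nat.card K := by
  have h1 := Subgroup.index_map K (QuotientGroup.mk' L)
  rw [QuotientGroup.ker_mk', sup_of_le_left hLK,
    MonoidHom.range_eq_top.mpr (QuotientGroup.mk'_surjective L), Subgroup.index_top, mul_one] at h1
  have h2 := Subgroup.card_mul_index (K.map (QuotientGroup.mk' L))
  have h3 := Subgroup.card_mul_index K
  have h4 := Subgroup.card_eq_card_quotient_mul_card_subgroup L
  rw [h1] at h2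
  have hidx : 0 < K.index := Nat.pos_of_ne_zero Subgroup.index_ne_zero_of_finite
  apply Nat.eq_of_mul_eq_mul_right hidx
  calc Nat.card (K.map (QuotientGroup.mk' L)) * Nat.card L * K.index
      = (Nat.card (K.map (QuotientGroup.mk' L)) * K.index) * Nat.card L := by ring
    _ = Nat.card (G ⧸ L) * Nat.card L := by rw [h2]
    _ = Nat.card G := h4.symm
    _ = Nat.card K * K.index := h3.symm

/-- A chief factor `K / L` at the bottom of a solvable quotient `G / L`: `K` is minimal among the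
normal subgroups of `G` properly containing `L`, `K / L` is abelian and of prime power order. -/
theorem exists_chief_over (L : Subgroup G) [L.Normal] (hL : L ≠ ⊤)
    (hsolv : Group.IsSolvable (G ⧸ L)) :
    ∃ K : Subgroup G, K.Normal ∧ L ≤ K ∧ K ≠ L ∧ (∀ x ∈ K, ∀ y ∈ K, x * y * x⁻¹ * y⁻¹ ∈ L) ∧
      (∃ p d : ℕ, p.Prime ∧ 0 < d ∧ Nat.card K = Nat.card L * p ^ d) ∧
      (∀ K' : Subgroup G, K'.Normal → L ≤ K' → K' ≤ K → K' = L ∨ K' = K) := by
  classical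
  have hnt : Nontrivial (G ⧸ L) := by
    obtain ⟨g, hg⟩ : ∃ g : G, g ∉ L := by
      by_contra h
      push Not at h
      exact hL (eq_top_iff.mpr fun x _ => h x)
    exact ⟨⟨(g : G ⧸ L), 1, fun h => hg ((QuotientGroup.eq_one_iff g).mp h)⟩⟩
  obtain ⟨M, ⟨hMn, hMne⟩, hMmin⟩ := Set.exists_min_image
    {N : Subgroup (G ⧸ L) | N.Normal ∧ N ≠ ⊥} (fun N => Nat.card N) (Set.toFinite _)
    ⟨⊤, inferInstance, top_ne_bot⟩
  have hmin : ∀ K : Subgroup (G ⧸ L), K.Normal → K ≤ M → K = ⊥ ∨ K = M := by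
    intro K hK hKM
    by_cases hb : K = ⊥
    · exact Or.inl hb
    · exact Or.inr (Subgroup.eq_of_le_of_card_ge hKM (hMmin K ⟨hK, hb⟩))
  have hcomm := Cfsg.Agent.Lib.Helper10.comm_of_minimal_normal_solvable M hmin
  obtain ⟨p, d, hp, hd, hcard⟩ :=
    Cfsg.Agent.Lib.Helper10.exists_prime_pow_card_of_minimal_normal M hMne hmin
  have hLK : L ≤ M.comap (QuotientGroup.mk' L) := by
    intro x hx
    rw [Subgroup.mem_comap]
    have : (QuotientGroup.mk' L) x = 1 := (QuotientGroup.eq_one_iff x).mpr hx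
    rw [this]
    exact M.one_mem
  have hmapK : (M.comap (QuotientGroup.mk' L)).map (QuotientGroup.mk' L) = M :=
    Subgroup.map_comap_eq_self_of_surjective (QuotientGroup.mk'_surjective L) M
  refine ⟨M.comap (QuotientGroup.mk' L), inferInstance, hLK, ?_, ?_, ⟨p, d, hp, hd, ?_⟩, ?_⟩
  · intro h
    apply hMne
    rw [← hmapK, h]
    rw [eq_bot_iff]
    rintro _ ⟨x, hx, rfl⟩
    rw [Subgroup.mem_bot]
    exact (QuotientGroup.eq_one_iff x).mpr hx
  · intro x hx y hy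
    rw [← QuotientGroup.eq_one_iff]
    have h := hcomm _ (Subgroup.mem_comap.mp hx) _ (Subgroup.mem_comap.mp hy)
    have h' : ((x : G ⧸ L)) * (y : G ⧸ L) = (y : G ⧸ L) * (x : G ⧸ L) := h
    rw [QuotientGroup.mk_mul, QuotientGroup.mk_mul, QuotientGroup.mk_mul, QuotientGroup.mk_inv,
      QuotientGroup.mk_inv, h']
    simp
  · have h := card_map_mk_mul L (M.comap (QuotientGroup.mk' L)) hLK
    rw [hmapK, hcard] at h
    rw [← h, mul_comm]
  · intro K' hK' hLK' hK'K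
    have hn : (K'.map (QuotientGroup.mk' L)).Normal :=
      hK'.map _ (QuotientGroup.mk'_surjective L)
    have hle : K'.map (QuotientGroup.mk' L) ≤ M := Subgroup.map_le_iff_le_comap.mpr hK'K
    rcases hmin _ hn hle with h | h
    · left
      apply le_antisymm _ hLK'
      intro x hx
      have : (QuotientGroup.mk' L) x ∈ K'.map (QuotientGroup.mk' L) :=
        Subgroup.mem_map_of_mem _ hx
      rw [h, Subgroup.mem_bot] at this
      exact (QuotientGroup.eq_one_iff x).mp this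
    · right
      have h2 := Subgroup.comap_map_eq (QuotientGroup.mk' L) K'
      rw [QuotientGroup.ker_mk', sup_of_le_left hLK', h] at h2
      exact h2.symm

/-- If `|K : L|` and `|Q : L|` are powers of the same prime `p` and `K ≠ L`, then some element of
`K` outside `L` centralises `Q` modulo `L`. -/
theorem exists_central_mod (L : Subgroup G) [L.Normal] (K : Subgroup G) [K.Normal] (hLK : L ≤ K)
    (Q : Subgroup G) (hLQ : L ≤ Q) {p d e : ℕ} (hp : p.Prime) (hd : 0 < d)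
    (hK : Nat.card K = Nat.card L * p ^ d) (hQ : Nat.card Q = Nat.card L * p ^ e) :
    ∃ k₀ ∈ K, k₀ ∉ L ∧ ∀ x ∈ Q, k₀ * x * k₀⁻¹ * x⁻¹ ∈ L := by
  classical
  have := Fact.mk hp
  have hL0 : 0 < Nat.card L := Nat.card_pos
  have hKn : (K.map (QuotientGroup.mk' L)).Normal :=
    Subgroup.Normal.map inferInstance _ (QuotientGroup.mk'_surjective L)
  have hcK : Nat.card (K.map (QuotientGroup.mk' L)) = p ^ d := by
    have h := card_map_mk_mul L K hLK
    rw [hK, mul_comm] at h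
    exact Nat.eq_of_mul_eq_mul_left hL0 h
  have hcQ : Nat.card (Q.map (QuotientGroup.mk' L)) = p ^ e := by
    have h := card_map_mk_mul L Q hLQ
    rw [hQ, mul_comm] at h
    exact Nat.eq_of_mul_eq_mul_left hL0 h
  have hPQ : IsPGroup p (Q.map (QuotientGroup.mk' L)) := IsPGroup.of_card hcQ
  let _ : MulAction (Q.map (QuotientGroup.mk' L)) (K.map (QuotientGroup.mk' L)) :=
    MulAction.compHom (K.map (QuotientGroup.mk' L))
      ((MulAut.conjNormal (H := K.map (QuotientGroup.mk' L))).comp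
        (Q.map (QuotientGroup.mk' L)).subtype)
  have hdvd : p ∣ Nat.card (K.map (QuotientGroup.mk' L)) := by
    rw [hcK]
    exact dvd_pow_self p hd.ne'
  have hfix : (1 : K.map (QuotientGroup.mk' L)) ∈
      MulAction.fixedPoints (Q.map (QuotientGroup.mk' L)) (K.map (QuotientGroup.mk' L)) := by
    intro q
    show (MulAut.conjNormal (q : G ⧸ L)) (1 : K.map (QuotientGroup.mk' L)) = 1
    exact map_one _
  obtain ⟨b, hb, hb1⟩ := hPQ.exists_fixed_point_of_prime_dvd_card_of_fixed_point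
    (K.map (QuotientGroup.mk' L)) hdvd hfix
  obtain ⟨k₀, hk₀, hk₀b⟩ := Subgroup.mem_map.mp b.2
  refine ⟨k₀, hk₀, ?_, ?_⟩
  · intro hk₀L
    apply hb1
    apply Subtype.ext
    rw [← hk₀b]
    exact ((QuotientGroup.eq_one_iff k₀).mpr hk₀L).symm
  · intro x hx
    have h1 := hb ⟨(QuotientGroup.mk' L) x, Subgroup.mem_map_of_mem _ hx⟩
    have h2 : ((QuotientGroup.mk' L) x) * (b : G ⧸ L) * ((QuotientGroup.mk' L) x)⁻¹ =
        (b : G ⧸ L) := by
      have h3 := congrArg (fun z : K.map (QuotientGroup.mk' L) => (z : G ⧸ L)) h1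
      exact h3
    rw [← hk₀b] at h2
    rw [← QuotientGroup.eq_one_iff]
    have h4 : ((k₀ * x * k₀⁻¹ * x⁻¹ : G) : G ⧸ L) =
        (QuotientGroup.mk' L) k₀ * ((QuotientGroup.mk' L) x * (QuotientGroup.mk' L) k₀ *
          ((QuotientGroup.mk' L) x)⁻¹)⁻¹ := by
      simp [mul_assoc]
    rw [h4, h2]
    simp

/-- If `K` is minimal over `L` with `K / L` abelian, `G = K H`, `Q` is normalised by `H`, and some
element of `K` outside `L` centralises `Q` modulo `L`, then all of `K` does. -/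
theorem commutator_le_of_minimal (L : Subgroup G) [hLn : L.Normal] (K : Subgroup G)
    [hKn : K.Normal] (hLK : L ≤ K) (hab : ∀ x ∈ K, ∀ y ∈ K, x * y * x⁻¹ * y⁻¹ ∈ L)
    (hmin : ∀ K' : Subgroup G, K'.Normal → L ≤ K' → K' ≤ K → K' = L ∨ K' = K)
    (H Q : Subgroup G) (hsurj : ∀ g : G, ∃ k ∈ K, ∃ h ∈ H, g = k * h)
    (hQH : ∀ h ∈ H, ∀ x ∈ Q, h * x * h⁻¹ ∈ Q)
    (k₀ : G) (hk₀ : k₀ ∈ K) (hk₀L : k₀ ∉ L) (hc : ∀ x ∈ Q, k₀ * x * k₀⁻¹ * x⁻¹ ∈ L) :
    ∀ k ∈ K, ∀ x ∈ Q, k * x * k⁻¹ * x⁻¹ ∈ L := by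
  let K₁ : Subgroup G :=
    { carrier := {k | k ∈ K ∧ ∀ x ∈ Q, k * x * k⁻¹ * x⁻¹ ∈ L}
      mul_mem' := by
        rintro a b ⟨ha, ha'⟩ ⟨hb, hb'⟩
        refine ⟨K.mul_mem ha hb, fun x hx => ?_⟩
        have e : a * b * x * (a * b)⁻¹ * x⁻¹ =
            (a * (b * x * b⁻¹ * x⁻¹) * a⁻¹) * (a * x * a⁻¹ * x⁻¹) := by group
        rw [e]
        exact L.mul_mem (hLn.conj_mem _ (hb' x hx) a) (ha' x hx)
      one_mem' := ⟨K.one_mem, fun x _ => by simp⟩
      inv_mem' := by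
        rintro a ⟨ha, ha'⟩
        refine ⟨K.inv_mem ha, fun x hx => ?_⟩
        have e : a⁻¹ * x * a⁻¹⁻¹ * x⁻¹ = a⁻¹ * (a * x * a⁻¹ * x⁻¹)⁻¹ * a⁻¹⁻¹ := by group
        rw [e]
        exact hLn.conj_mem _ (L.inv_mem (ha' x hx)) a⁻¹ }
  have hK₁mem : ∀ k, k ∈ K₁ ↔ k ∈ K ∧ ∀ x ∈ Q, k * x * k⁻¹ * x⁻¹ ∈ L := fun k => Iff.rfl
  have hK₁n : K₁.Normal := by
    refine ⟨fun n hn g => ?_⟩
    obtain ⟨k, hk, h, hh, rfl⟩ := hsurj g
    obtain ⟨hnK, hn'⟩ := (hK₁mem n).mp hn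
    -- first conjugate by `h`
    have h1 : h * n * h⁻¹ ∈ K₁ := by
      refine (hK₁mem _).mpr ⟨hKn.conj_mem n hnK h, fun x hx => ?_⟩
      have hx' : h⁻¹ * x * h⁻¹⁻¹ ∈ Q := hQH h⁻¹ (H.inv_mem hh) x hx
      have e : h * n * h⁻¹ * x * (h * n * h⁻¹)⁻¹ * x⁻¹ =
          h * (n * (h⁻¹ * x * h⁻¹⁻¹) * n⁻¹ * (h⁻¹ * x * h⁻¹⁻¹)⁻¹) * h⁻¹ := by group
      rw [e]
      exact hLn.conj_mem _ (hn' _ hx') h
    -- then by `k`
    obtain ⟨hmK, hm'⟩ := (hK₁mem _).mp h1
    have e0 : k * h * n * (k * h)⁻¹ = k * (h * n * h⁻¹) * k⁻¹ := by group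
    rw [e0]
    set m := h * n * h⁻¹ with hm
    refine (hK₁mem _).mpr ⟨hKn.conj_mem m hmK k, fun x hx => ?_⟩
    have hl : k * m * k⁻¹ * m⁻¹ ∈ L := hab k hk m hmK
    have e : k * m * k⁻¹ * x * (k * m * k⁻¹)⁻¹ * x⁻¹ =
        (k * m * k⁻¹ * m⁻¹) * (m * x * m⁻¹ * x⁻¹) * (x * (k * m * k⁻¹ * m⁻¹)⁻¹ * x⁻¹) := by group
    rw [e]
    exact L.mul_mem (L.mul_mem hl (hm' x hx)) (hLn.conj_mem _ (L.inv_mem hl) x)
  have hLK₁ : L ≤ K₁ := by
    intro l hl
    refine (hK₁mem l).mpr ⟨hLK hl, fun x hx => ?_⟩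
    have e : l * x * l⁻¹ * x⁻¹ = l * (x * l⁻¹ * x⁻¹) := by group
    rw [e]
    exact L.mul_mem hl (hLn.conj_mem _ (L.inv_mem hl) x)
  have hK₁K : K₁ ≤ K := fun k hk => ((hK₁mem k).mp hk).1
  rcases hmin K₁ hK₁n hLK₁ hK₁K with h | h
  · exact absurd (h ▸ (hK₁mem k₀).mpr ⟨hk₀, hc⟩ : k₀ ∈ L) hk₀L
  · intro k hk x hx
    have : k ∈ K₁ := by rw [h]; exact hk
    exact ((hK₁mem k).mp this).2 x hx

/-- If `[K, Q] ≤ L ≤ Q ≤ H`, `Q` is normalised by `H` and `G = K H`, then `Q` is normal in `G`,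
hence contained in the core of `H`. -/
theorem le_normalCore_of_commutator_le (L K H Q : Subgroup G) (hLQ : L ≤ Q) (hQH' : Q ≤ H)
    (hsurj : ∀ g : G, ∃ k ∈ K, ∃ h ∈ H, g = k * h)
    (hQH : ∀ h ∈ H, ∀ x ∈ Q, h * x * h⁻¹ ∈ Q)
    (hc : ∀ k ∈ K, ∀ x ∈ Q, k * x * k⁻¹ * x⁻¹ ∈ L) : Q ≤ H.normalCore := by
  have hQn : Q.Normal := by
    refine ⟨fun x hx g => ?_⟩
    obtain ⟨k, hk, h, hh, rfl⟩ := hsurj g
    have hx' : h * x * h⁻¹ ∈ Q := hQH h hh x hx
    have e : k * h * x * (k * h)⁻¹ = (k * (h * x * h⁻¹) * k⁻¹ * (h * x * h⁻¹)⁻¹) * (h * x * h⁻¹) := by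
      group
    rw [e]
    exact Q.mul_mem (hLQ (hc k hk _ hx')) hx'
  exact Subgroup.normal_le_normalCore.mpr hQH'

end

end Cfsg.Agent.Lib.Helper15
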