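import Mathlib
import Cfsg.Prelude.Def_Characters
import Cfsg.Agent.Lib.Helper15.IndKer
import Cfsg.Agent.Lib.Helper15.Mackey
import Cfsg.Agent.Lib.Helper15.FibProd
import Cfsg.Agent.Lib.Helper3.BrauerIdeal
import Cfsg.Agent.Lib.Helper75.CliffordCorr2
import Cfsg.Agent.S0890

/-!
# The inductive step in Berger's theorem

`χ = ϑ^G` with `H` maximal, `L ⊴ G`, `K ⊴ G`, `K H = G`, `K ∩ H = L`, and a central extension
`p : E → H` in which the `G`-invariant constituent `φ` of `χ_L` extends to `Φ`, with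
`ϑ ∘ p = β Φ`.  Then `χ` is induced from a proper subgroup `T` containing a normal subgroup of `G`
that properly contains `L`.
-/

set_option autoImplicit false

namespace Cfsg.Agent.Lib.Helper15

open scoped ComplexConjugate

universe u

theorem berger_step {G : Type u} [Group G] [Fintype G] [Group.IsSolvable G]
    (χ : G → ℂ) (hχ : Cfsg.IsIrrCharacter G χ)
    (H : Subgroup G) (hmax : IsCoatom H) (ϑ : H → ℂ) (hϑ : Cfsg.IsIrrCharacter H ϑ)
    (hind : Cfsg.indFun H ϑ = χ)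
    (L : Subgroup G) [hL : L.Normal] (K : Subgroup G) [hK : K.Normal] (hLK : L ≤ K)
    (hsurj : ∀ g : G, ∃ k ∈ K, ∃ h ∈ H, g = k * h) (hinf : K ⊓ H = L)
    {E : Type u} [Group E] [Finite E] [Group.IsSolvable E] (p : E →* H)
    (hp : Function.Surjective p)
    (hcent : ∀ z y : E, p z = 1 → z * y = y * z)
    (i : L →* E) (hpi : ∀ l : L, ((p (i l) : H) : G) = l)
    (hconj : ∀ (y : E) (l : L) (h : ((p y : H) : G) * l * ((p y : H) : G)⁻¹ ∈ L),
      y * i l * y⁻¹ = i ⟨((p y : H) : G) * l * ((p y : H) : G)⁻¹, h⟩)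
    (Φ : E → ℂ) (hΦ : Cfsg.IsIrrCharacter E Φ)
    (hΦi : Cfsg.IsIrrCharacter L (fun l => Φ (i l)))
    (hΦinv : ∀ (g : G) (l : L) (h : g * l * g⁻¹ ∈ L), Φ (i ⟨g * l * g⁻¹, h⟩) = Φ (i l))
    (hΦz : ∀ z : E, p z = 1 → ∃ c : ℂ, ∀ y, Φ (z * y) = c * Φ y)
    (β : E → ℂ) (hβ : Cfsg.IsCharacter E β) (hβi : ∀ (y : E) (l : L), β (y * i l) = β y)
    (hϑβ : ∀ y : E, ϑ (p y) = β y * Φ y) :
    ∃ (T : Subgroup G) (ω : T → ℂ), T ≠ ⊤ ∧ Cfsg.IsCharacter T ω ∧ Cfsg.indFun T ω = χ ∧
      ∃ M : Subgroup G, M.Normal ∧ L ≤ M ∧ M ≤ T ∧ ¬ M ≤ L := by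
  classical
  have : Fintype (fib K (H.subtype.comp p)) := Fintype.ofFinite _
  have hsurjq : ∀ g : G, ∃ k ∈ K, ∃ y : E, g = k * (H.subtype.comp p) y := by
    intro g
    obtain ⟨k, hk, h, hh, rfl⟩ := hsurj g
    obtain ⟨y, hy⟩ := hp ⟨h, hh⟩
    refine ⟨k, hk, y, ?_⟩
    show k * h = k * ((p y : H) : G)
    rw [hy]
  have hπ₁ : Function.Surjective (fibFst K (H.subtype.comp p)) :=
    fibFst_surjective K (H.subtype.comp p) hsurjq
  have hmax' : IsCoatom (H.comap (fibFst K (H.subtype.comp p))) :=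
    isCoatom_comap_of_surjective _ hπ₁ hmax
  have hLH : L ≤ H := by
    rw [← hinf]
    exact inf_le_right
  have hL'n : (fibIncl K H L p hLK).range.Normal := fibIncl_range_normal K H L p hLK
  have hL'H' : (fibIncl K H L p hLK).range ≤ H.comap (fibFst K (H.subtype.comp p)) :=
    fibIncl_range_le K H L hinf p hLK
  have hτsurj : Function.Surjective (fibTwist K H L hinf p i hconj) :=
    fibTwist_surjective K H L hinf p i hconj
  have : Fintype (H.comap (fibFst K (H.subtype.comp p))) := Fintype.ofFinite _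
  have : Fintype E := Fintype.ofFinite _
  have : Fintype L := Fintype.ofFinite _
  have : Fintype H := Fintype.ofFinite _
  -- characters
  have hΦc := Cfsg.Agent.Lib.Helper80.isCharacter_of_isIrrCharacter hΦ
  have hΦ₁ : Cfsg.IsIrrCharacter (H.comap (fibFst K (H.subtype.comp p)))
      (fun z => Φ (fibTwist K H L hinf p i hconj z)) :=
    Cfsg.Agent.Lib.Helper80.isIrrCharacter_comp (fibTwist K H L hinf p i hconj) hτsurj hΦ
  have hΦ₁c := Cfsg.Agent.Lib.Helper80.isCharacter_of_isIrrCharacter hΦ₁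
  have hβ' : Cfsg.IsCharacter (fib K (H.subtype.comp p))
      (fun z => β (fibSnd K (H.subtype.comp p) z)) :=
    Cfsg.Agent.Lib.Helper80.isCharacter_comp (fibSnd K (H.subtype.comp p)) hβ
  have hχ' : Cfsg.IsIrrCharacter (fib K (H.subtype.comp p))
      (fun z => χ (fibFst K (H.subtype.comp p) z)) :=
    Cfsg.Agent.Lib.Helper80.isIrrCharacter_comp (fibFst K (H.subtype.comp p)) hπ₁ hχ
  have hϑc := Cfsg.Agent.Lib.Helper80.isCharacter_of_isIrrCharacter hϑ
  have hϑcl := Cfsg.Agent.Lib.Helper80.isClassFunction_of_isCharacter hϑc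
  have hsurj' : ∀ g : G, ∃ u : fib K (H.subtype.comp p), ∃ h ∈ H,
      g = fibFst K (H.subtype.comp p) u * h := fun g => by
    obtain ⟨u, rfl⟩ := hπ₁ g
    exact ⟨u, 1, H.one_mem, (mul_one _).symm⟩
  have hC1 : ∀ x : fib K (H.subtype.comp p), χ (fibFst K (H.subtype.comp p) x) =
      Cfsg.indFun (H.comap (fibFst K (H.subtype.comp p)))
        (fun y => ϑ ⟨fibFst K (H.subtype.comp p) y, y.2⟩) x := by
    intro x
    rw [← hind]
    exact indFun_comp_hom (fibFst K (H.subtype.comp p)) H hsurj' ϑ hϑcl x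
  have hC2 : (fun y : H.comap (fibFst K (H.subtype.comp p)) =>
      ϑ ⟨fibFst K (H.subtype.comp p) y, y.2⟩) =
      (fun z : H.comap (fibFst K (H.subtype.comp p)) => Φ (fibTwist K H L hinf p i hconj z)) *
      (fun z : H.comap (fibFst K (H.subtype.comp p)) =>
        (fun w : fib K (H.subtype.comp p) => β (fibSnd K (H.subtype.comp p) w)) z) := by
    funext z
    have h1 : (⟨fibFst K (H.subtype.comp p) z, z.2⟩ : H) =
        p (fibTwist K H L hinf p i hconj z) :=
      Subtype.ext (proj_fibTwist K H L hinf p i hconj hpi z).symm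
    rw [h1, hϑβ, Pi.mul_apply, mul_comm]
    congr 1
    rw [fibTwist_apply]
    exact hβi _ _
  have hχ₀c : Cfsg.IsCharacter (fib K (H.subtype.comp p))
      (Cfsg.indFun (H.comap (fibFst K (H.subtype.comp p)))
        (fun z => Φ (fibTwist K H L hinf p i hconj z))) :=
    Cfsg.Agent.Lib.Helper80.isCharacter_indFun _ hΦ₁c
  have hprod : (fun z => χ (fibFst K (H.subtype.comp p) z)) =
      Cfsg.indFun (H.comap (fibFst K (H.subtype.comp p)))
        (fun z => Φ (fibTwist K H L hinf p i hconj z)) *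
      (fun w => β (fibSnd K (H.subtype.comp p) w)) := by
    rw [Cfsg.Agent.Lib.Helper3.indFun_mul _ _
      (Cfsg.Agent.Lib.Helper80.isClassFunction_of_isCharacter hβ'), ← hC2]
    funext x
    exact hC1 x
  have hχ₀ : Cfsg.IsIrrCharacter (fib K (H.subtype.comp p))
      (Cfsg.indFun (H.comap (fibFst K (H.subtype.comp p)))
        (fun z => Φ (fibTwist K H L hinf p i hconj z))) :=
    isIrr_of_mul_isIrr hχ₀c hβ' (hprod ▸ hχ')
  -- restriction of `Φ₁` to `L × 1`
  have hΦ₁L' : Cfsg.IsIrrCharacter (fibIncl K H L p hLK).range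
      (fun x : (fibIncl K H L p hLK).range =>
        (fun z : H.comap (fibFst K (H.subtype.comp p)) =>
          Φ (fibTwist K H L hinf p i hconj z)) ⟨x, hL'H' x.2⟩) := by
    have : Fintype (fibIncl K H L p hLK).range := Fintype.ofFinite _
    apply isIrrCharacter_of_comp (fibIncl K H L p hLK).rangeRestrict
      (Cfsg.Agent.Lib.Helper80.isCharacter_comp (Subgroup.inclusion hL'H') hΦ₁c)
    have h1 : (fun l : L => (fun x : (fibIncl K H L p hLK).range =>
        (fun z : H.comap (fibFst K (H.subtype.comp p)) =>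
          Φ (fibTwist K H L hinf p i hconj z)) (Subgroup.inclusion hL'H' x))
        ((fibIncl K H L p hLK).rangeRestrict l)) = fun l => Φ (i l) := by
      funext l
      exact congrArg Φ (fibTwist_incl K H L hinf p i hLK hconj l _)
    rw [h1]
    exact hΦi
  have hsolv' : Group.IsSolvable (fib K (H.subtype.comp p) ⧸ (fibIncl K H L p hLK).range) :=
    inferInstance
  obtain ⟨M', hM'n, hL'M', hnot⟩ := Cfsg.Agent.S0890.result (fibIncl K H L p hLK).range
    (H.comap (fibFst K (H.subtype.comp p))) hL'H' hmax' hsolv'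
    (fun z => Φ (fibTwist K H L hinf p i hconj z)) hΦ₁ hΦ₁L' hχ₀
  have : Fintype M' := Fintype.ofFinite _
  have hχ₀M'c : Cfsg.IsCharacter M' (fun m : M' =>
      Cfsg.indFun (H.comap (fibFst K (H.subtype.comp p)))
        (fun z => Φ (fibTwist K H L hinf p i hconj z)) m) :=
    Cfsg.Agent.Lib.Helper80.isCharacter_restrict M' hχ₀c
  have hχ₀1 := Cfsg.Agent.Lib.Helper80.char_one_ne_zero hχ₀
  obtain ⟨θ, hθ, hθne⟩ := Cfsg.Agent.Lib.Helper81.exists_constituent81 hχ₀M'c
    (by simpa using hχ₀1)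
  have hT'top : Cfsg.Agent.Lib.Helper75.inertia M' θ ≠ ⊤ := by
    intro htop
    have hinv := (Cfsg.Agent.Lib.Helper75.inertia_eq_top_iff M' θ).mp htop
    have hres := Cfsg.Agent.Lib.Helper75.res_eq_smul_of_invariant M' hχ₀ hθ hθne hinv
    obtain ⟨m, hm⟩ := Cfsg.Agent.Lib.Helper75.classInner_char_irr_nat hχ₀M'c hθ
    apply hnot
    exact ⟨θ, m, hθ, by rw [← hm]; exact hres⟩
  have hM'T' : M' ≤ Cfsg.Agent.Lib.Helper75.inertia M' θ :=
    Cfsg.Agent.Lib.Helper75.le_inertia M'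
      (Cfsg.Agent.Lib.Helper80.isClassFunction_of_isCharacter
        (Cfsg.Agent.Lib.Helper80.isCharacter_of_isIrrCharacter hθ))
  have : Fintype (Cfsg.Agent.Lib.Helper75.inertia M' θ) := Fintype.ofFinite _
  obtain ⟨ψ', hψ', hψ'ind, -⟩ := Cfsg.Agent.Lib.Helper75.clifford_correspondence M'
    (Cfsg.Agent.Lib.Helper75.inertia M' θ) hM'T' hχ₀ hθ
    (fun g => Cfsg.Agent.Lib.Helper75.mem_inertia_iff M' θ g) hθne
  have hω' : Cfsg.IsCharacter (Cfsg.Agent.Lib.Helper75.inertia M' θ)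
      (ψ' * fun t : Cfsg.Agent.Lib.Helper75.inertia M' θ =>
        (fun w : fib K (H.subtype.comp p) => β (fibSnd K (H.subtype.comp p) w)) t) :=
    Cfsg.Agent.Lib.Helper80.isCharacter_mul
      (Cfsg.Agent.Lib.Helper80.isCharacter_of_isIrrCharacter hψ')
      (Cfsg.Agent.Lib.Helper80.isCharacter_restrict _ hβ')
  have hω'ind : ∀ x, Cfsg.indFun (Cfsg.Agent.Lib.Helper75.inertia M' θ)
      (ψ' * fun t : Cfsg.Agent.Lib.Helper75.inertia M' θ =>
        (fun w : fib K (H.subtype.comp p) => β (fibSnd K (H.subtype.comp p) w)) t) x =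
      χ (fibFst K (H.subtype.comp p) x) := by
    intro x
    rw [← Cfsg.Agent.Lib.Helper3.indFun_mul _ ψ'
      (Cfsg.Agent.Lib.Helper80.isClassFunction_of_isCharacter hβ'), hψ'ind]
    exact (congrFun hprod x).symm
  obtain ⟨T, ω₀, hω₀, hω₀ind, hTcomap⟩ := descent (fibFst K (H.subtype.comp p)) hπ₁
    (Cfsg.Agent.Lib.Helper75.inertia M' θ) hω' χ
    (Cfsg.Agent.Lib.Helper80.char_one_ne_zero hχ) hω'ind
  refine ⟨T, ω₀, ?_, hω₀, hω₀ind, M'.map (fibFst K (H.subtype.comp p)), hM'n.map _ hπ₁,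
    ?_, ?_, ?_⟩
  · intro hT
    apply hT'top
    rw [← hTcomap, hT, Subgroup.comap_top]
  · intro l hl
    exact ⟨fibIncl K H L p hLK ⟨l, hl⟩, hL'M' ⟨⟨l, hl⟩, rfl⟩, rfl⟩
  · rw [Subgroup.map_le_iff_le_comap, hTcomap]
    exact hM'T'
  · intro hML
    apply hnot
    have hM'L : ∀ m ∈ M', (m : G × E).1 ∈ L := fun m hm => hML ⟨m, hm, rfl⟩
    have hM'H' : M' ≤ H.comap (fibFst K (H.subtype.comp p)) := fun m hm => hLH (hM'L m hm)
    have hθ₀c : Cfsg.IsCharacter M'
        (fun m : M' => Φ (fibTwist K H L hinf p i hconj ⟨m, hM'H' m.2⟩)) :=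
      Cfsg.Agent.Lib.Helper80.isCharacter_comp
        ((fibTwist K H L hinf p i hconj).comp (Subgroup.inclusion hM'H')) hΦc
    have hθ₀ : Cfsg.IsIrrCharacter M'
        (fun m : M' => Φ (fibTwist K H L hinf p i hconj ⟨m, hM'H' m.2⟩)) := by
      have : Fintype (fibIncl K H L p hLK).range := Fintype.ofFinite _
      exact isIrrCharacter_of_comp (Subgroup.inclusion hL'M') hθ₀c hΦ₁L'
    have hθ₀ne : Cfsg.classInner (fun m : M' =>
        Cfsg.indFun (H.comap (fibFst K (H.subtype.comp p)))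
          (fun z => Φ (fibTwist K H L hinf p i hconj z)) m)
        (fun m : M' => Φ (fibTwist K H L hinf p i hconj ⟨m, hM'H' m.2⟩)) ≠ 0 := by
      have hfrob := Cfsg.Agent.Lib.Helper80.frobenius_reciprocity
        (H.comap (fibFst K (H.subtype.comp p)))
        (fun z => Φ (fibTwist K H L hinf p i hconj z))
        (Cfsg.indFun (H.comap (fibFst K (H.subtype.comp p)))
          (fun z => Φ (fibTwist K H L hinf p i hconj z)))
        (Cfsg.Agent.Lib.Helper80.isClassFunction_of_isCharacter hχ₀c)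
      rw [Cfsg.Agent.Lib.Helper80.classInner_self hχ₀] at hfrob
      have hne1 : Cfsg.classInner
          (fun h : H.comap (fibFst K (H.subtype.comp p)) =>
            Cfsg.indFun (H.comap (fibFst K (H.subtype.comp p)))
              (fun z => Φ (fibTwist K H L hinf p i hconj z)) h)
          (fun z => Φ (fibTwist K H L hinf p i hconj z)) ≠ 0 := by
        rw [← Cfsg.Agent.Lib.Helper80.classInner_conj_symm, ← hfrob]
        simp
      obtain ⟨c, hc, hcc⟩ := Cfsg.Agent.Lib.Helper81.classInner_restrict_pos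
        (Subgroup.inclusion hM'H')
        (Cfsg.Agent.Lib.Helper80.isCharacter_restrict _ hχ₀c) hΦ₁c hne1
      have hcc' : Cfsg.classInner (fun m : M' =>
          Cfsg.indFun (H.comap (fibFst K (H.subtype.comp p)))
            (fun z => Φ (fibTwist K H L hinf p i hconj z)) m)
          (fun m : M' => Φ (fibTwist K H L hinf p i hconj ⟨m, hM'H' m.2⟩)) = c := hcc
      rw [hcc']
      exact_mod_cast (by omega : c ≠ 0)
    have hinv : ∀ g : fib K (H.subtype.comp p), Cfsg.Agent.Lib.Helper75.conjChar M'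
        (fun m : M' => Φ (fibTwist K H L hinf p i hconj ⟨m, hM'H' m.2⟩)) g =
        (fun m : M' => Φ (fibTwist K H L hinf p i hconj ⟨m, hM'H' m.2⟩)) := by
      rw [Cfsg.Agent.Lib.Helper75.forall_conjChar_eq_iff]
      intro g n
      have hn : (n : G × E).1 ∈ L := hM'L n n.2
      have hn' : ((p (n : G × E).2 : H) : G) ∈ L := fib_proj_mem K H L hinf p hLK n.1 hn
      have hgn : g.1.1 * (n : G × E).1 * g.1.1⁻¹ ∈ L := hL.conj_mem _ hn _
      have hz : p ((n : G × E).2 * (i ⟨((p (n : G × E).2 : H) : G), hn'⟩)⁻¹) = 1 := by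
        rw [map_mul, map_inv, mul_inv_eq_one]
        apply Subtype.ext
        rw [hpi]
      obtain ⟨c, hc⟩ := hΦz _ hz
      have e1 := fibTwist_conj K H L hinf p i hLK hcent hpi hconj g ⟨n.1, hM'H' n.2⟩ hn hn'
        (hM'H' (hM'n.conj_mem n.1 n.2 g)) hgn
      have e2 := fibTwist_of_mem K H L hinf p i hconj ⟨n.1, hM'H' n.2⟩ hn hn'
      show Φ (fibTwist K H L hinf p i hconj ⟨g * n.1 * g⁻¹, _⟩) =
        Φ (fibTwist K H L hinf p i hconj ⟨n.1, _⟩)
      rw [e1, e2, hc, hc]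
      congr 1
      exact hΦinv g.1.1 ⟨(n : G × E).1, hn⟩ hgn
    have hres := Cfsg.Agent.Lib.Helper75.res_eq_smul_of_invariant M' hχ₀ hθ₀ hθ₀ne hinv
    obtain ⟨m, hm⟩ := Cfsg.Agent.Lib.Helper75.classInner_char_irr_nat hχ₀M'c hθ₀
    exact ⟨_, m, hθ₀, by rw [← hm]; exact hres⟩

end Cfsg.Agent.Lib.Helper15
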