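import Mathlib
import Cfsg.Prelude.Def_Characters
import Cfsg.Agent.Lib.Helper15.BergerStep
import Cfsg.Agent.Lib.Helper75.CentExt
import Cfsg.Agent.Lib.Helper75.CentExt2

/-!
# The inductive step in Berger's theorem, with the central extension supplied

`berger_step_centExt` instantiates `berger_step` with the central extension of `H` in which the
`G`-invariant irreducible constituent `φ` of `χ_L` extends (helper75's `centExt`).
-/

set_option autoImplicit false

namespace Cfsg.Agent.Lib.Helper15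

open scoped ComplexConjugate

universe u

theorem berger_step_centExt {G : Type u} [Group G] [Fintype G] [Group.IsSolvable G]
    (χ : G → ℂ) (hχ : Cfsg.IsIrrCharacter G χ)
    (H : Subgroup G) (hmax : IsCoatom H) (ϑ : H → ℂ) (hϑ : Cfsg.IsIrrCharacter H ϑ)
    (hind : Cfsg.indFun H ϑ = χ)
    (L : Subgroup G) [hL : L.Normal] (K : Subgroup G) [hK : K.Normal] (hLK : L ≤ K)
    (hsurj : ∀ g : G, ∃ k ∈ K, ∃ h ∈ H, g = k * h) (hinf : K ⊓ H = L)
    (φ : L → ℂ) (e : ℕ) (hφ : Cfsg.IsIrrCharacter L φ)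
    (hχL : (fun n : L => χ n) = (e : ℂ) • φ) :
    ∃ (T : Subgroup G) (ω : T → ℂ), T ≠ ⊤ ∧ Cfsg.IsCharacter T ω ∧ Cfsg.indFun T ω = χ ∧
      ∃ M : Subgroup G, M.Normal ∧ L ≤ M ∧ M ≤ T ∧ ¬ M ≤ L := by
  classical
  have : Fintype H := Fintype.ofFinite H
  have : Fintype L := Fintype.ofFinite L
  have hχc := Cfsg.Agent.Lib.Helper80.isCharacter_of_isIrrCharacter hχ
  have hϑc := Cfsg.Agent.Lib.Helper80.isCharacter_of_isIrrCharacter hϑ
  have hLH : L ≤ H := by
    rw [← hinf]
    exact inf_le_right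
  have he : (e : ℂ) ≠ 0 := by
    intro h0
    have h1 := congrFun hχL 1
    simp only [Pi.smul_apply, smul_eq_mul, h0, zero_mul] at h1
    exact Cfsg.Agent.Lib.Helper80.char_one_ne_zero hχ (by simpa using h1)
  -- invariance of `φ`
  have hφinv : ∀ (g : G) (l : L) (h : g * l * g⁻¹ ∈ L), φ ⟨g * l * g⁻¹, h⟩ = φ l := by
    intro g l h
    have h1 := congrFun hχL ⟨g * l * g⁻¹, h⟩
    have h2 := congrFun hχL l
    simp only [Pi.smul_apply, smul_eq_mul] at h1 h2
    have h3 : χ (g * l * g⁻¹) = χ l := Cfsg.Agent.Lib.Helper80.char_conj_eq hχc l g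
    rw [h3, h2] at h1
    exact (mul_left_cancel₀ he h1).symm
  -- the representation
  have hNn : (L.subgroupOf H).Normal := Subgroup.normal_subgroupOf
  have : Fintype (L.subgroupOf H) := Fintype.ofFinite _
  have hφ' : Cfsg.IsIrrCharacter (L.subgroupOf H)
      (fun n => φ (Subgroup.subgroupOfEquivOfLe hLH n)) :=
    Cfsg.Agent.Lib.Helper80.isIrrCharacter_comp_mulEquiv (Subgroup.subgroupOfEquivOfLe hLH) hφ
  obtain ⟨d, Y, hY, hYchar⟩ := hφ'
  have : Y.IsIrreducible := hY
  have hinv' : ∀ (g : H) (n : L.subgroupOf H),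
      Y.character (MulAut.conjNormal g n) = Y.character n := by
    intro g n
    rw [hYchar]
    show φ (Subgroup.subgroupOfEquivOfLe hLH (MulAut.conjNormal g n)) =
      φ (Subgroup.subgroupOfEquivOfLe hLH n)
    have h1 := hφinv (g : G) (Subgroup.subgroupOfEquivOfLe hLH n)
      (hL.conj_mem _ (Subgroup.subgroupOfEquivOfLe hLH n).2 _)
    rw [← h1]
    congr 1
  have hp := Cfsg.Agent.Lib.Helper75.centExtProj_surjective (L.subgroupOf H) Y hinv'
  -- `φ` is a constituent of `ϑ_L`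
  have hne : Cfsg.classInner (fun n : L.subgroupOf H => ϑ n) Y.character ≠ 0 := by
    have hfrob := Cfsg.Agent.Lib.Helper80.frobenius_reciprocity H ϑ χ
      (Cfsg.Agent.Lib.Helper80.isClassFunction_of_isCharacter hχc)
    rw [hind, Cfsg.Agent.Lib.Helper80.classInner_self hχ] at hfrob
    have hne1 : Cfsg.classInner (fun h : H => χ h) ϑ ≠ 0 := by
      rw [← Cfsg.Agent.Lib.Helper80.classInner_conj_symm, ← hfrob]
      simp
    obtain ⟨c, hc, hcc⟩ := Cfsg.Agent.Lib.Helper81.classInner_restrict_pos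
      (L.subgroupOf H).subtype (Cfsg.Agent.Lib.Helper80.isCharacter_restrict H hχc) hϑc hne1
    have h1 : ((fun h : H => χ h) ∘ (L.subgroupOf H).subtype) =
        (e : ℂ) • (fun n : L.subgroupOf H => φ (Subgroup.subgroupOfEquivOfLe hLH n)) := by
      funext n
      have h2 := congrFun hχL (Subgroup.subgroupOfEquivOfLe hLH n)
      simp only [Pi.smul_apply, smul_eq_mul] at h2
      simp only [Pi.smul_apply, smul_eq_mul, Function.comp_apply]
      rw [← h2]
      rfl
    rw [h1, Cfsg.Agent.Lib.Helper80.classInner_smul_left, ← hYchar] at hcc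
    intro h0
    have h2 : Cfsg.classInner Y.character (ϑ ∘ (L.subgroupOf H).subtype) = 0 := by
      rw [← Cfsg.Agent.Lib.Helper80.classInner_conj_symm]
      have h3 : Cfsg.classInner (ϑ ∘ (L.subgroupOf H).subtype) Y.character = 0 := h0
      rw [h3]
      simp
    rw [h2, mul_zero] at hcc
    have h4 : c = 0 := by exact_mod_cast hcc.symm
    omega
  obtain ⟨β, hβ, hβ1, hβΦ⟩ := Cfsg.Agent.Lib.Helper75.centExt_gallagher (L.subgroupOf H) Y
    hinv' hϑ hne
  have hβc := Cfsg.Agent.Lib.Helper80.isCharacter_of_isIrrCharacter hβ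
  obtain ⟨ψq, -, hψq⟩ := Cfsg.Agent.Lib.Helper80.exists_isCharacter_deflate
    (Cfsg.Agent.Lib.Helper75.centExtIncl (L.subgroupOf H) Y).range hβc
    (fun x hx => by
      obtain ⟨n, rfl⟩ := hx
      exact hβ1 n)
  have hβi : ∀ (y : Cfsg.Agent.Lib.Helper75.centExt (L.subgroupOf H) Y) (n : L.subgroupOf H),
      β (y * Cfsg.Agent.Lib.Helper75.centExtIncl (L.subgroupOf H) Y n) = β y := by
    intro y n
    rw [← hψq, ← hψq]
    congr 1
    exact QuotientGroup.mk_mul_of_mem y ⟨n, rfl⟩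
  have hEsolv : Group.IsSolvable (Cfsg.Agent.Lib.Helper75.centExt (L.subgroupOf H) Y) := by
    have hker : Group.IsSolvable (Cfsg.Agent.Lib.Helper75.centExtProj (L.subgroupOf H) Y).ker :=
      Group.isSolvable_of_comm (fun a b => Subtype.ext
        (Cfsg.Agent.Lib.Helper75.centExt_central (L.subgroupOf H) Y a.1
          (MonoidHom.mem_ker.mp a.2) b.1))
    exact Group.isSolvable_of_ker_le_range
      (Cfsg.Agent.Lib.Helper75.centExtProj (L.subgroupOf H) Y).ker.subtype
      (Cfsg.Agent.Lib.Helper75.centExtProj (L.subgroupOf H) Y)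
      (by rw [Subgroup.range_subtype])
  have hΦi' : (fun l : L => (Cfsg.Agent.Lib.Helper75.centExtRep (L.subgroupOf H) Y).character
      (((Cfsg.Agent.Lib.Helper75.centExtIncl (L.subgroupOf H) Y).comp
        (Subgroup.subgroupOfEquivOfLe hLH).symm.toMonoidHom) l)) = φ := by
    funext l
    show (Cfsg.Agent.Lib.Helper75.centExtRep (L.subgroupOf H) Y).character
      (Cfsg.Agent.Lib.Helper75.centExtIncl (L.subgroupOf H) Y
        ((Subgroup.subgroupOfEquivOfLe hLH).symm l)) = φ l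
    rw [Cfsg.Agent.Lib.Helper75.centExtRep_character_incl, hYchar]
    show φ (Subgroup.subgroupOfEquivOfLe hLH ((Subgroup.subgroupOfEquivOfLe hLH).symm l)) = φ l
    rw [MulEquiv.apply_symm_apply]
  refine berger_step χ hχ H hmax ϑ hϑ hind L K hLK hsurj hinf
    (E := Cfsg.Agent.Lib.Helper75.centExt (L.subgroupOf H) Y)
    (Cfsg.Agent.Lib.Helper75.centExtProj (L.subgroupOf H) Y) hp
    (fun z y hz => Cfsg.Agent.Lib.Helper75.centExt_central (L.subgroupOf H) Y z hz y)
    ((Cfsg.Agent.Lib.Helper75.centExtIncl (L.subgroupOf H) Y).comp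
      (Subgroup.subgroupOfEquivOfLe hLH).symm.toMonoidHom)
    (fun l => rfl) ?_
    (Cfsg.Agent.Lib.Helper75.centExtRep (L.subgroupOf H) Y).character
    (Cfsg.Agent.Lib.Helper75.centExtRep_isIrrCharacter (L.subgroupOf H) Y) ?_ ?_ ?_ β hβc
    (fun y l => hβi y _) hβΦ
  · intro y l h
    show y * Cfsg.Agent.Lib.Helper75.centExtIncl (L.subgroupOf H) Y
        ((Subgroup.subgroupOfEquivOfLe hLH).symm l) * y⁻¹ =
      Cfsg.Agent.Lib.Helper75.centExtIncl (L.subgroupOf H) Y
        ((Subgroup.subgroupOfEquivOfLe hLH).symm ⟨_, h⟩)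
    rw [Cfsg.Agent.Lib.Helper75.centExt_conj_incl]
    congr 1
  · rw [hΦi']
    exact hφ
  · intro g l h
    have h1 := congrFun hΦi' ⟨g * l * g⁻¹, h⟩
    have h2 := congrFun hΦi' l
    rw [h1, h2]
    exact hφinv g l h
  · intro z hz
    obtain ⟨c, hc⟩ := Cfsg.Agent.Lib.Helper75.centExtRep_scalar (L.subgroupOf H) Y z hz
    refine ⟨c, fun y => ?_⟩
    simp only [Representation.character]
    rw [map_mul, hc, smul_mul_assoc, one_mul, map_smul, smul_eq_mul]

end Cfsg.Agent.Lib.Helper15
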