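import Mathlib
import Cfsg.Prelude.Def_Characters
import Cfsg.Agent.Lib.Helper3.BrauerMain
import Cfsg.Agent.Lib.Helper15.PermChar

set_option autoImplicit false

namespace Cfsg.Agent.Lib.Helper15

open Cfsg.Agent.Lib.Helper3

universe u

variable {G : Type u} [Group G] [Fintype G]

/-- Integer-valued `p`-local generators: a permutation character in the span of characters
induced from `p`-elementary subgroups whose value at `x` is prime to `p`. -/
theorem exists_indSpan_int_prime_to (x : G) {p : ℕ} (hp : p.Prime) :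
    ∃ f ∈ indSpan (fun E : Subgroup G => Cfsg.IsElementary p E),
      (∀ y : G, ∃ n : ℤ, f y = n) ∧ ∃ n : ℤ, f x = n ∧ ¬ (p : ℤ) ∣ n := by
  classical
  obtain ⟨H, hQE, n, hn, hpn⟩ := Cfsg.Agent.Lib.Helper82.exists_quasiElem_fixed x p hp
  have : Fintype H := Fintype.ofFinite H
  have h1 := one_mem_indSpan_of_quasiElem hp (Nat.card H) H rfl hQE
  refine ⟨Cfsg.indFun H (fun _ => (1 : ℂ)), ?_, ?_, n, ?_, ?_⟩
  · exact indSpan_ind H (fun E' hE' => isElementary_of_mulEquiv
      (Subgroup.equivMapOfInjective E' H.subtype H.subtype_injective) hE') h1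
  · intro y
    have : Fintype (G ⧸ H) := Fintype.ofFinite _
    rw [indFun_one_eq_card_fixed_quotient H y]
    exact ⟨((Finset.univ.filter (fun q : G ⧸ H => y • q = q)).card : ℤ), by push_cast; rfl⟩
  · rw [hn]
    simp
  · exact_mod_cast hpn

theorem indSpan_mul_self {FAM : Subgroup G → Prop} {f g : G → ℂ} (hf : f ∈ indSpan FAM)
    (hg : g ∈ indSpan FAM) : f * g ∈ indSpan FAM :=
  indSpan_mul_genChars hf (indSpan_le_genChars FAM hg)

theorem indSpan_pow_succ {FAM : Subgroup G → Prop} {f : G → ℂ} (hf : f ∈ indSpan FAM) (k : ℕ) :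
    f ^ (k + 1) ∈ indSpan FAM := by
  induction k with
  | zero => simpa using hf
  | succ k ih => rw [pow_succ]; exact indSpan_mul_self ih hf

/-- A function in the `p`-elementary induction span with all values integers `≡ 1 [ZMOD p]`. -/
theorem exists_indSpan_modEq_one {p : ℕ} (hp : p.Prime) :
    ∃ g ∈ indSpan (fun E : Subgroup G => Cfsg.IsElementary p E),
      ∀ y : G, ∃ n : ℤ, g y = n ∧ n ≡ 1 [ZMOD p] := by
  classical
  have key : ∀ s : Finset G, ∃ g ∈ indSpan (fun E : Subgroup G => Cfsg.IsElementary p E),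
      (∀ y : G, ∃ n : ℤ, g y = n) ∧ ∀ y ∈ s, ∃ n : ℤ, g y = n ∧ n ≡ 1 [ZMOD p] := by
    intro s
    induction s using Finset.induction_on with
    | empty =>
      exact ⟨0, AddSubgroup.zero_mem _, fun y => ⟨0, by simp⟩,
        fun y hy => absurd hy (Finset.notMem_empty y)⟩
    | insert a s _ ih =>
      obtain ⟨F, hF, hFint, hFs⟩ := ih
      obtain ⟨f, hf, hfint, n, hfn, hpn⟩ := exists_indSpan_int_prime_to a hp (G := G)
      have hp1 : p - 1 = (p - 2) + 1 := by have := hp.two_le; omega
      have hb : f ^ (p - 1) ∈ indSpan (fun E : Subgroup G => Cfsg.IsElementary p E) := by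
        rw [hp1]; exact indSpan_pow_succ hf _
      refine ⟨F + f ^ (p - 1) - F * f ^ (p - 1), ?_, ?_, ?_⟩
      · exact AddSubgroup.sub_mem _ (AddSubgroup.add_mem _ hF hb) (indSpan_mul_self hF hb)
      · intro y
        obtain ⟨u, hu⟩ := hFint y
        obtain ⟨v, hv⟩ := hfint y
        refine ⟨u + v ^ (p - 1) - u * v ^ (p - 1), ?_⟩
        simp only [Pi.add_apply, Pi.sub_apply, Pi.mul_apply, Pi.pow_apply, hu, hv]
        push_cast; ring
      · intro y hy
        obtain ⟨u, hu⟩ := hFint y
        obtain ⟨v, hv⟩ := hfint y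
        refine ⟨u + v ^ (p - 1) - u * v ^ (p - 1), ?_, ?_⟩
        · simp only [Pi.add_apply, Pi.sub_apply, Pi.mul_apply, Pi.pow_apply, hu, hv]
          push_cast; ring
        · rcases Finset.mem_insert.mp hy with rfl | hy
          · have hvn : v = n := by
              have : (v : ℂ) = (n : ℂ) := by rw [← hv, ← hfn]
              exact_mod_cast this
            have hcop : IsCoprime v (p : ℤ) := by
              rw [hvn]
              exact ((Nat.prime_iff_prime_int.mp hp).coprime_iff_not_dvd.mpr hpn).symm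
            have h1 : v ^ (p - 1) ≡ 1 [ZMOD p] := Int.ModEq.pow_card_sub_one_eq_one hp hcop
            have h2 : u + v ^ (p - 1) - u * v ^ (p - 1) ≡ u + 1 - u * 1 [ZMOD p] :=
              Int.ModEq.sub (Int.ModEq.add (Int.ModEq.refl u) h1)
                (Int.ModEq.mul (Int.ModEq.refl u) h1)
            have h3 : u + 1 - u * 1 = 1 := by ring
            rwa [h3] at h2
          · obtain ⟨u', hu', hu'1⟩ := hFs y hy
            have huu : u = u' := by
              have : (u : ℂ) = (u' : ℂ) := by rw [← hu, ← hu']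
              exact_mod_cast this
            have h1 : u ≡ 1 [ZMOD p] := by rw [huu]; exact hu'1
            have h2 : u + v ^ (p - 1) - u * v ^ (p - 1) ≡ 1 + v ^ (p - 1) - 1 * v ^ (p - 1) [ZMOD p] :=
              Int.ModEq.sub (Int.ModEq.add h1 (Int.ModEq.refl _))
                (Int.ModEq.mul h1 (Int.ModEq.refl _))
            have h3 : 1 + v ^ (p - 1) - 1 * v ^ (p - 1) = 1 := by ring
            rwa [h3] at h2
  obtain ⟨g, hg, -, hgs⟩ := key Finset.univ
  exact ⟨g, hg, fun y => hgs y (Finset.mem_univ y)⟩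

omit [Fintype G] in
theorem one_mem_genChars : (fun _ : G => (1 : ℂ)) ∈ genChars G :=
  AddSubgroup.subset_closure Cfsg.Agent.Lib.Helper80.isCharacter_one

/-- **Local form of Brauer's induction theorem** (ideal form): some integer `m` prime to `p`
times the trivial character lies in the span of the characters induced from `p`-elementary
subgroups. -/
theorem exists_const_mem_indSpan_elementary {p : ℕ} (hp : p.Prime) :
    ∃ m : ℤ, ¬ (p : ℤ) ∣ m ∧
      (fun _ : G => (m : ℂ)) ∈ indSpan (fun E : Subgroup G => Cfsg.IsElementary p E) := by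
  classical
  obtain ⟨g, hg, hgv⟩ := exists_indSpan_modEq_one hp (G := G)
  choose v hv hv1 using hgv
  have hpZ : Prime (p : ℤ) := Nat.prime_iff_prime_int.mp hp
  have key : ∀ S : Finset ℤ, (∀ a ∈ S, a ≡ 1 [ZMOD p]) →
      ∃ q ∈ indSpan (fun E : Subgroup G => Cfsg.IsElementary p E), ∃ c : ℤ, ¬ (p : ℤ) ∣ c ∧
        (fun y : G => ∏ a ∈ S, (g y - (a : ℂ))) = q + fun _ => (c : ℂ) := by
    intro S
    induction S using Finset.induction_on with
    | empty =>
      intro _
      refine ⟨0, AddSubgroup.zero_mem _, 1, ?_, ?_⟩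
      · intro h
        exact hpZ.not_isUnit (isUnit_of_dvd_one h)
      · funext y; simp
    | insert a S ha ih =>
      intro hS
      obtain ⟨q, hq, c, hc, hqc⟩ := ih (fun b hb => hS b (Finset.mem_insert_of_mem hb))
      have ha1 : a ≡ 1 [ZMOD p] := hS a (Finset.mem_insert_self a S)
      have hga : (g - fun _ => (a : ℂ)) ∈ genChars G := by
        apply AddSubgroup.sub_mem _ (indSpan_le_genChars _ hg)
        have : (fun _ : G => (a : ℂ)) = a • (fun _ : G => (1 : ℂ)) := by
          funext y; simp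
        rw [this]
        exact AddSubgroup.zsmul_mem _ one_mem_genChars a
      refine ⟨q * (g - fun _ => (a : ℂ)) + c • g, ?_, c * (-a), ?_, ?_⟩
      · exact AddSubgroup.add_mem _ (indSpan_mul_genChars hq hga) (AddSubgroup.zsmul_mem _ hg c)
      · intro hdvd
        rcases hpZ.dvd_or_dvd hdvd with h | h
        · exact hc h
        · have h2 : (p : ℤ) ∣ a := (dvd_neg).mp h
          have h3 : a ≡ 0 [ZMOD p] := (Int.modEq_zero_iff_dvd).mpr h2
          have h4 : (1 : ℤ) ≡ 0 [ZMOD p] := ha1.symm.trans h3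
          have h5 : (p : ℤ) ∣ 1 := (Int.modEq_zero_iff_dvd).mp h4
          exact hpZ.not_isUnit (isUnit_of_dvd_one h5)
      · funext y
        have h1 := congrFun hqc y
        simp only [Pi.add_apply] at h1
        rw [Finset.prod_insert ha, h1]
        show (g y - (a : ℂ)) * (q y + c) = q y * (g y - a) + c • g y + ((c * -a : ℤ) : ℂ)
        rw [zsmul_eq_mul]
        push_cast; ring
  obtain ⟨q, hq, c, hc, hqc⟩ := key (Finset.univ.image v) (fun a ha => by
    obtain ⟨y, -, rfl⟩ := Finset.mem_image.mp ha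
    exact hv1 y)
  refine ⟨c, hc, ?_⟩
  have hzero : (fun y : G => ∏ a ∈ Finset.univ.image v, (g y - (a : ℂ))) = 0 := by
    funext y
    apply Finset.prod_eq_zero (Finset.mem_image_of_mem v (Finset.mem_univ y))
    rw [hv y]; simp
  rw [hzero] at hqc
  have : (fun _ : G => (c : ℂ)) = -q := by
    rw [eq_neg_iff_add_eq_zero, add_comm]; exact hqc.symm
  rw [this]
  exact AddSubgroup.neg_mem _ hq

theorem list_neg_sum (la : List ((E : Subgroup G) × ((E → ℂ) × ℤ))) :
    ((la.map (fun t => (⟨t.1, (t.2.1, -t.2.2)⟩ : (E : Subgroup G) × ((E → ℂ) × ℤ)))).map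
      fun t => (t.2.2 : ℂ) • Cfsg.indFun t.1 t.2.1).sum =
    -(la.map fun t => (t.2.2 : ℂ) • Cfsg.indFun t.1 t.2.1).sum := by
  induction la with
  | nil => simp
  | cons t l ihl =>
    simp only [List.map_cons, List.sum_cons, neg_add_rev]
    rw [add_comm, ihl]
    congr 1
    push_cast
    rw [neg_smul]

/-- Unfolding membership in `indSpan` into an explicit list of induced characters with
integer coefficients. -/
theorem exists_list_of_mem_indSpan {FAM : Subgroup G → Prop} {f : G → ℂ}
    (hf : f ∈ indSpan FAM) :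
    ∃ l : List ((E : Subgroup G) × ((E → ℂ) × ℤ)),
      (∀ t ∈ l, FAM t.1 ∧ Cfsg.IsCharacter t.1 t.2.1) ∧
      f = (l.map fun t => (t.2.2 : ℂ) • Cfsg.indFun t.1 t.2.1).sum := by
  unfold indSpan at hf
  induction hf using AddSubgroup.closure_induction with
  | mem f hf =>
    obtain ⟨H, hH, φ, hφ, rfl⟩ := hf
    refine ⟨[⟨H, (φ, 1)⟩], ?_, ?_⟩
    · intro t ht
      rw [List.mem_singleton] at ht
      subst ht
      exact ⟨hH, hφ⟩
    · simp
  | zero => exact ⟨[], by simp, by simp⟩
  | add a b _ _ iha ihb =>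
    obtain ⟨la, hla, rfl⟩ := iha
    obtain ⟨lb, hlb, rfl⟩ := ihb
    refine ⟨la ++ lb, ?_, ?_⟩
    · intro t ht
      rcases List.mem_append.mp ht with h | h
      · exact hla t h
      · exact hlb t h
    · simp
  | neg a _ ih =>
    obtain ⟨la, hla, rfl⟩ := ih
    refine ⟨la.map (fun t => ⟨t.1, (t.2.1, -t.2.2)⟩), ?_, ?_⟩
    · intro t ht
      obtain ⟨t', ht', rfl⟩ := List.mem_map.mp ht
      exact hla t' ht'
    · rw [list_neg_sum]

end Cfsg.Agent.Lib.Helper15
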