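import Mathlib
import Cfsg.Prelude.Def_Characters
import Cfsg.Agent.Lib.Helper80.CharKer

set_option autoImplicit false

namespace Cfsg.Agent.Lib.Helper15

open scoped ComplexConjugate

/-- Weighted fixed-point congruence: if all orbits have `p`-power size, an invariant integer
weight that is divisible by `p` at every fixed point has total sum divisible by `p`. -/
theorem dvd_sum_of_fixed {p : ℕ} {E : Type*} [Group E] {Ω : Type*} [Fintype Ω]
    [MulAction E Ω] (hstab : ∀ ω : Ω, ∃ j : ℕ, (MulAction.stabilizer E ω).index = p ^ j)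
    (T : Ω → ℤ) (hT : ∀ (g : E) (ω : Ω), T (g • ω) = T ω)
    (hfix : ∀ ω : Ω, (∀ g : E, g • ω = ω) → (p : ℤ) ∣ T ω) : (p : ℤ) ∣ ∑ ω, T ω := by
  classical
  have key : ∀ S : Finset Ω, (∀ (g : E) (ω : Ω), ω ∈ S → g • ω ∈ S) → (p : ℤ) ∣ ∑ ω ∈ S, T ω := by
    intro S
    induction S using Finset.strongInduction with
    | H S ih =>
      intro hS
      by_cases hne : S.Nonempty
      · obtain ⟨ω₀, hω₀⟩ := hne
        let O : Finset Ω := S.filter (fun ω => ω ∈ MulAction.orbit E ω₀)
        let S' : Finset Ω := S.filter (fun ω => ¬ ω ∈ MulAction.orbit E ω₀)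
        have hsplit : ∑ ω ∈ O, T ω + ∑ ω ∈ S', T ω = ∑ ω ∈ S, T ω :=
          Finset.sum_filter_add_sum_filter_not S _ T
        have hS'sub : S' ⊂ S := by
          refine Finset.filter_ssubset.mpr ⟨ω₀, hω₀, ?_⟩
          simp
        have hS'inv : ∀ (g : E) (ω : Ω), ω ∈ S' → g • ω ∈ S' := by
          intro g ω hω
          obtain ⟨h1, h2⟩ := Finset.mem_filter.mp hω
          refine Finset.mem_filter.mpr ⟨hS g ω h1, fun h3 => h2 ?_⟩
          have : ω = g⁻¹ • (g • ω) := by simp
          rw [this]
          exact (MulAction.mem_orbit_iff.mp h3).elim fun a ha =>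
            MulAction.mem_orbit_iff.mpr ⟨g⁻¹ * a, by rw [mul_smul, ha]⟩
        have h2 := ih S' hS'sub hS'inv
        have hOset : (O : Set Ω) = MulAction.orbit E ω₀ := by
          ext ω
          simp only [O, Finset.coe_filter, Set.mem_ofPred_eq]
          constructor
          · exact fun h => h.2
          · intro h
            refine ⟨?_, h⟩
            obtain ⟨g, rfl⟩ := MulAction.mem_orbit_iff.mp h
            exact hS g ω₀ hω₀
        have hOcard : O.card = (MulAction.stabilizer E ω₀).index := by
          rw [MulAction.index_stabilizer, ← hOset, Set.ncard_coe_finset]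
        have hOsum : ∑ ω ∈ O, T ω = (O.card : ℤ) * T ω₀ := by
          rw [Finset.sum_congr rfl (g := fun _ => T ω₀), Finset.sum_const, nsmul_eq_mul]
          intro ω hω
          obtain ⟨g, rfl⟩ := MulAction.mem_orbit_iff.mp (Finset.mem_filter.mp hω).2
          exact hT g ω₀
        have h1 : (p : ℤ) ∣ ∑ ω ∈ O, T ω := by
          rw [hOsum, hOcard]
          obtain ⟨j, hj⟩ := hstab ω₀
          rw [hj]
          rcases Nat.eq_zero_or_pos j with rfl | hjpos
          · -- the orbit is a single point: a fixed point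
            apply Dvd.dvd.mul_left
            apply hfix
            intro g
            have hc : O.card = 1 := by rw [hOcard, hj, pow_zero]
            obtain ⟨a, ha⟩ := Finset.card_eq_one.mp hc
            have h3 : ω₀ ∈ O := Finset.mem_filter.mpr ⟨hω₀, MulAction.mem_orbit_self ω₀⟩
            have h4 : g • ω₀ ∈ O :=
              Finset.mem_filter.mpr ⟨hS g ω₀ hω₀, MulAction.mem_orbit ω₀ g⟩
            rw [ha, Finset.mem_singleton] at h3 h4
            rw [h4, h3]
          · apply Dvd.dvd.mul_right
            have : (p : ℤ) ∣ ((p ^ j : ℕ) : ℤ) := by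
              push_cast
              exact dvd_pow_self _ hjpos.ne'
            exact this
        rw [← hsplit]
        exact dvd_add h1 h2
      · rw [Finset.not_nonempty_iff_eq_empty.mp hne]
        simp
  exact key Finset.univ (fun _ _ _ => Finset.mem_univ _)

section ConjAct

variable {G : Type*} [Group G]

/-- Conjugation by the elements of a subgroup `E` on a subgroup `D` that it normalizes. -/
def conjAut (D E : Subgroup G) (hn : ∀ g ∈ E, ∀ x ∈ D, g * x * g⁻¹ ∈ D) : E →* MulAut D where
  toFun g :=
    { toFun := fun x => ⟨g * x * g⁻¹, hn g g.2 x x.2⟩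
      invFun := fun x => ⟨g⁻¹ * x * g, by
        have := hn (g : G)⁻¹ (E.inv_mem g.2) x x.2
        simpa using this⟩
      left_inv := fun x => by
        apply Subtype.ext
        simp [mul_assoc]
      right_inv := fun x => by
        apply Subtype.ext
        simp [mul_assoc]
      map_mul' := fun x y => by
        apply Subtype.ext
        simp [mul_assoc] }
  map_one' := by
    ext x
    simp
  map_mul' := fun g h => by
    ext x
    simp [mul_assoc]

@[simp]
theorem conjAut_apply (D E : Subgroup G) (hn : ∀ g ∈ E, ∀ x ∈ D, g * x * g⁻¹ ∈ D) (g : E) (x : D) :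
    ((conjAut D E hn g) x : G) = g * x * g⁻¹ := rfl

/-- The action of `E` on the irreducible characters of a subgroup `D` that it normalizes. -/
@[reducible]
noncomputable def irrConjAction (D E : Subgroup G) (hn : ∀ g ∈ E, ∀ x ∈ D, g * x * g⁻¹ ∈ D) :
    MulAction E (Cfsg.IrrCharacter D) where
  smul g ξ := ⟨fun x => (ξ : D → ℂ) ((conjAut D E hn g)⁻¹ x),
    Cfsg.Agent.Lib.Helper80.isIrrCharacter_comp_mulEquiv ((conjAut D E hn g)⁻¹) ξ.2⟩
  one_smul ξ := by
    apply Subtype.ext
    funext x
    show (ξ : D → ℂ) ((conjAut D E hn 1)⁻¹ x) = (ξ : D → ℂ) x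
    rw [map_one]
    simp
  mul_smul g h ξ := by
    apply Subtype.ext
    funext x
    show (ξ : D → ℂ) ((conjAut D E hn (g * h))⁻¹ x) =
      (ξ : D → ℂ) ((conjAut D E hn h)⁻¹ ((conjAut D E hn g)⁻¹ x))
    rw [map_mul, mul_inv_rev]
    rfl

theorem irrConjAction_smul_apply (D E : Subgroup G) (hn : ∀ g ∈ E, ∀ x ∈ D, g * x * g⁻¹ ∈ D)
    (g : E) (ξ : Cfsg.IrrCharacter D) (x : D) :
    (((irrConjAction D E hn).smul g ξ : Cfsg.IrrCharacter D) : D → ℂ) x =
      (ξ : D → ℂ) ((conjAut D E hn g)⁻¹ x) := rfl

/-- Inner products are invariant under composing both arguments with a bijection. -/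
theorem classInner_comp_equiv {D : Type*} [Group D] [Fintype D] (σ : D ≃ D) (f h : D → ℂ) :
    Cfsg.classInner (fun x => f (σ x)) (fun x => h (σ x)) = Cfsg.classInner f h := by
  unfold Cfsg.classInner
  congr 1
  exact Equiv.sum_comp σ (fun x => f x * conj (h x))

end ConjAct

end Cfsg.Agent.Lib.Helper15
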