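import Mathlib
import Cfsg.Prelude.Def_Characters

set_option autoImplicit false

namespace Cfsg.Agent.Lib.Helper15

section PiParts

variable {G : Type*} [Group G]

theorem pow_eq_self_of_modEq_one {x : G} {k d : ℕ} (hk : k ≡ 1 [MOD d]) (hx : x ^ d = 1) :
    x ^ k = x := by
  have h1 : orderOf x ∣ d := orderOf_dvd_of_pow_eq_one hx
  have h2 : k ≡ 1 [MOD orderOf x] := hk.of_dvd h1
  have h3 := pow_eq_pow_iff_modEq.mpr h2
  simpa using h3

theorem pow_eq_one_of_modEq_zero {x : G} {k d : ℕ} (hk : k ≡ 0 [MOD d]) (hx : x ^ d = 1) :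
    x ^ k = 1 := by
  obtain ⟨t, rfl⟩ := (Nat.modEq_zero_iff_dvd).mp hk
  rw [pow_mul, hx, one_pow]

theorem pow_mul_eq_one_of_card_dvd [Finite G] {m n : ℕ} (hc : Nat.card G ∣ m * n) (x : G) :
    x ^ (m * n) = 1 := by
  obtain ⟨t, ht⟩ := hc
  rw [ht, pow_mul, pow_card_eq_one', one_pow]

/-- The `k`-th power, `k ≡ 0 [MOD n]`, has order dividing `m` when `|G| ∣ m * n`. -/
theorem pow_pow_eq_one [Finite G] {m n k : ℕ} (hc : Nat.card G ∣ m * n) (hk : k ≡ 0 [MOD n])
    (x : G) : (x ^ k) ^ m = 1 := by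
  obtain ⟨t, rfl⟩ := (Nat.modEq_zero_iff_dvd).mp hk
  rw [← pow_mul, show n * t * m = (m * n) * t by ring, pow_mul, pow_mul_eq_one_of_card_dvd hc,
    one_pow]

/-- Exponents selecting the two coprime parts. -/
theorem exists_piExp {m n : ℕ} (h : m.Coprime n) :
    ∃ k k' : ℕ, k ≡ 1 [MOD m] ∧ k ≡ 0 [MOD n] ∧ k' ≡ 0 [MOD m] ∧ k' ≡ 1 [MOD n] := by
  obtain ⟨k, hk1, hk2⟩ := Nat.chineseRemainder h 1 0
  obtain ⟨k', hk1', hk2'⟩ := Nat.chineseRemainder h 0 1
  exact ⟨k, k', hk1, hk2, hk1', hk2'⟩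

theorem pow_mul_pow_eq_self [Finite G] {m n k k' : ℕ} (hmn : m.Coprime n)
    (hc : Nat.card G ∣ m * n) (hk1 : k ≡ 1 [MOD m]) (hk0 : k ≡ 0 [MOD n])
    (hk0' : k' ≡ 0 [MOD m]) (hk1' : k' ≡ 1 [MOD n]) (x : G) : x ^ k * x ^ k' = x := by
  rw [← pow_add]
  apply pow_eq_self_of_modEq_one (d := m * n) _ (pow_mul_eq_one_of_card_dvd hc x)
  apply (Nat.modEq_and_modEq_iff_modEq_mul hmn).mp
  constructor
  · have := Nat.ModEq.add hk1 hk0'
    simpa using this
  · have := Nat.ModEq.add hk0 hk1'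
    simpa using this

/-- Uniqueness of the decomposition into commuting parts of coprime orders. -/
theorem pow_eq_of_decomp [Finite G] {m n k k' : ℕ}
    (hc : Nat.card G ∣ m * n) (hk1 : k ≡ 1 [MOD m]) (hk0 : k ≡ 0 [MOD n])
    (hk0' : k' ≡ 0 [MOD m]) (hk1' : k' ≡ 1 [MOD n]) {x u v : G} (hx : x = u * v)
    (huv : Commute u v) (hu : (orderOf u).Coprime n) (hv : (orderOf v).Coprime m) :
    x ^ k = u ∧ x ^ k' = v := by
  have hum : u ^ m = 1 := by
    apply orderOf_dvd_iff_pow_eq_one.mp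
    exact Nat.Coprime.dvd_of_dvd_mul_right hu ((orderOf_dvd_natCard u).trans hc)
  have hvn : v ^ n = 1 := by
    apply orderOf_dvd_iff_pow_eq_one.mp
    exact Nat.Coprime.dvd_of_dvd_mul_left hv ((orderOf_dvd_natCard v).trans hc)
  constructor
  · rw [hx, huv.mul_pow, pow_eq_self_of_modEq_one hk1 hum, pow_eq_one_of_modEq_zero hk0 hvn,
      mul_one]
  · rw [hx, huv.mul_pow, pow_eq_one_of_modEq_zero hk0' hum, pow_eq_self_of_modEq_one hk1' hvn,
      one_mul]

/-- In an elementary group the power map selecting a coprime part is multiplicative. -/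
theorem elementary_pow_mul {E : Type*} [Group E] [Finite E] {p : ℕ} (hp : p.Prime)
    (hE : Cfsg.IsElementary p E) {m n k : ℕ} (hmn : m.Coprime n) (hc : Nat.card E ∣ m * n)
    (hk1 : k ≡ 1 [MOD m]) (hk0 : k ≡ 0 [MOD n]) (x y : E) :
    (x * y) ^ k = x ^ k * y ^ k := by
  classical
  have := Fact.mk hp
  obtain ⟨z, hz, hzp, j, hj⟩ := hE
  obtain ⟨P⟩ := (inferInstance : Nonempty (Sylow p E))
  have hcardZ : Nat.card (Subgroup.zpowers z) = orderOf z := Nat.card_zpowers z
  have hcardE : Nat.card E = orderOf z * p ^ j := by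
    rw [← Subgroup.card_mul_index (Subgroup.zpowers z), hcardZ, hj]
  have hoz : 0 < orderOf z := orderOf_pos z
  have hnd : ¬ p ∣ orderOf z := fun h => by
    have := Nat.Coprime.eq_one_of_dvd hzp.symm h
    exact hp.one_lt.ne' this
  have hcardP : Nat.card (P : Subgroup E) = p ^ j := by
    rw [Sylow.card_eq_multiplicity, hcardE, Nat.factorization_mul hoz.ne' (pow_pos hp.pos j).ne',
      Finsupp.add_apply, Nat.factorization_eq_zero_of_not_dvd hnd, hp.factorization_pow]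
    simp
  have hcompl : Subgroup.IsComplement' (Subgroup.zpowers z) (P : Subgroup E) := by
    apply Subgroup.isComplement'_of_coprime
    · rw [hcardZ, hcardP, hcardE]
    · rw [hcardZ, hcardP]
      exact Nat.Coprime.pow_right j hzp
  have hdec : ∀ w : E, ∃ a ∈ Subgroup.zpowers z, ∃ b ∈ (P : Subgroup E), w = a * b := by
    intro w
    obtain ⟨⟨a, b⟩, hab, -⟩ := hcompl.existsUnique w
    exact ⟨a, a.2, b, b.2, hab.symm⟩
  have hcen : ∀ a ∈ Subgroup.zpowers z, ∀ w : E, a * w = w * a := by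
    intro a ha w
    have : a ∈ Subgroup.center E := (Subgroup.zpowers_le.mpr hz) ha
    exact (Subgroup.mem_center_iff.mp this w).symm
  -- powers on P
  have hPpow : (∀ u ∈ (P : Subgroup E), u ^ k = u) ∨ (∀ u ∈ (P : Subgroup E), u ^ k = 1) := by
    have hdvd : p ^ j ∣ m * n := by
      have : p ^ j ∣ Nat.card E := by rw [hcardE]; exact dvd_mul_left _ _
      exact this.trans hc
    have hu : ∀ u ∈ (P : Subgroup E), u ^ (p ^ j) = 1 := by
      intro u hu
      have h1 : (⟨u, hu⟩ : (P : Subgroup E)) ^ Nat.card (P : Subgroup E) = 1 := pow_card_eq_one'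
      rw [hcardP] at h1
      exact congrArg Subtype.val h1
    by_cases hpm : p ∣ m
    · left
      have hpn : ¬ p ∣ n := fun h => by
        have := Nat.eq_one_of_dvd_coprimes hmn hpm h
        exact hp.one_lt.ne' this
      have hcop : (p ^ j).Coprime n := Nat.Coprime.pow_left j ((Nat.Prime.coprime_iff_not_dvd hp).mpr hpn)
      have hdm : p ^ j ∣ m := Nat.Coprime.dvd_of_dvd_mul_right hcop hdvd
      intro u hu'
      exact pow_eq_self_of_modEq_one (hk1.of_dvd hdm) (hu u hu')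
    · right
      have hcop : (p ^ j).Coprime m := Nat.Coprime.pow_left j ((Nat.Prime.coprime_iff_not_dvd hp).mpr hpm)
      have hdn : p ^ j ∣ n := Nat.Coprime.dvd_of_dvd_mul_left hcop hdvd
      intro u hu'
      exact pow_eq_one_of_modEq_zero (hk0.of_dvd hdn) (hu u hu')
  obtain ⟨a, ha, b, hb, rfl⟩ := hdec x
  obtain ⟨a', ha', b', hb', rfl⟩ := hdec y
  have hbb' : b * b' ∈ (P : Subgroup E) := Subgroup.mul_mem _ hb hb'
  have e1 : a * b * (a' * b') = (a * a') * (b * b') := by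
    rw [mul_assoc, ← mul_assoc b a' b', ← hcen a' ha' b, mul_assoc, ← mul_assoc]
  have c1 : Commute (a * a') (b * b') := hcen (a * a') (Subgroup.mul_mem _ ha ha') (b * b')
  have c2 : Commute a a' := hcen a ha a'
  have c3 : Commute a b := hcen a ha b
  have c4 : Commute a' b' := hcen a' ha' b'
  rw [e1, c1.mul_pow, c2.mul_pow, c3.mul_pow, c4.mul_pow]
  rcases hPpow with h | h
  · rw [h _ hbb', h b hb, h b' hb']
    have c5 : Commute (a' ^ k) b := hcen (a' ^ k) (Subgroup.pow_mem _ ha' k) b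
    rw [mul_assoc, mul_assoc, ← mul_assoc (a' ^ k) b b', c5.eq, mul_assoc]
  · rw [h _ hbb', h b hb, h b' hb']
    simp

end PiParts

end Cfsg.Agent.Lib.Helper15
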