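import Mathlib
import Cfsg.Prelude.Def_Characters
import Cfsg.Prelude.Def_Blocks
import Cfsg.Agent.Lib.Helper3.BrauerMain
import Cfsg.Agent.Lib.Helper3.CharValues
import Cfsg.Agent.Lib.Helper80.CharOps
import Cfsg.Agent.Lib.Helper80.CharKer

set_option autoImplicit false

namespace Cfsg.Agent.Lib.Helper15

open Cfsg.Agent.Lib.Helper3

universe u

/-- `f` is a combination of the irreducible characters with algebraic-integer coefficients. -/
def IsRComb (G : Type u) [Group G] (f : G → ℂ) : Prop :=
  ∃ c : Cfsg.IrrCharacter G → ℂ, (∀ χ, c χ ∈ Cfsg.AlgInt) ∧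
    f = ∑ᶠ χ : Cfsg.IrrCharacter G, c χ • (χ : G → ℂ)

section

variable {G : Type u} [Group G] [Finite G]

omit [Finite G] in
theorem isRComb_iff {f : G → ℂ} [Fintype (Cfsg.IrrCharacter G)] :
    IsRComb G f ↔ ∃ c : Cfsg.IrrCharacter G → ℂ, (∀ χ, c χ ∈ Cfsg.AlgInt) ∧
      f = ∑ χ : Cfsg.IrrCharacter G, c χ • (χ : G → ℂ) := by
  unfold IsRComb
  simp only [finsum_eq_sum_of_fintype]

theorem isRComb_zero : IsRComb G (0 : G → ℂ) := by
  have := Fintype.ofFinite (Cfsg.IrrCharacter G)
  rw [isRComb_iff]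
  exact ⟨fun _ => 0, fun _ => Subalgebra.zero_mem _, by simp⟩

theorem isRComb_add {f g : G → ℂ} (hf : IsRComb G f) (hg : IsRComb G g) : IsRComb G (f + g) := by
  have := Fintype.ofFinite (Cfsg.IrrCharacter G)
  rw [isRComb_iff] at hf hg ⊢
  obtain ⟨c, hc, rfl⟩ := hf
  obtain ⟨d, hd, rfl⟩ := hg
  refine ⟨fun χ => c χ + d χ, fun χ => Subalgebra.add_mem _ (hc χ) (hd χ), ?_⟩
  rw [← Finset.sum_add_distrib]
  exact Finset.sum_congr rfl fun χ _ => by rw [add_smul]

theorem isRComb_smul {a : ℂ} (ha : a ∈ Cfsg.AlgInt) {f : G → ℂ} (hf : IsRComb G f) :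
    IsRComb G (a • f) := by
  have := Fintype.ofFinite (Cfsg.IrrCharacter G)
  rw [isRComb_iff] at hf ⊢
  obtain ⟨c, hc, rfl⟩ := hf
  refine ⟨fun χ => a * c χ, fun χ => Subalgebra.mul_mem _ ha (hc χ), ?_⟩
  rw [Finset.smul_sum]
  exact Finset.sum_congr rfl fun χ _ => by rw [smul_smul]

theorem isRComb_neg {f : G → ℂ} (hf : IsRComb G f) : IsRComb G (-f) := by
  have h := isRComb_smul (a := -1) (Subalgebra.neg_mem _ (Subalgebra.one_mem _)) hf
  simpa using h

theorem isRComb_sum {ι : Type*} (s : Finset ι) (f : ι → G → ℂ) (h : ∀ i ∈ s, IsRComb G (f i)) :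
    IsRComb G (∑ i ∈ s, f i) := by
  classical
  induction s using Finset.induction_on with
  | empty => simpa using isRComb_zero
  | insert a s ha ih =>
    rw [Finset.sum_insert ha]
    exact isRComb_add (h a (Finset.mem_insert_self a s))
      (ih fun i hi => h i (Finset.mem_insert_of_mem hi))

theorem isRComb_of_isCharacter {f : G → ℂ} (hf : Cfsg.IsCharacter G f) : IsRComb G f := by
  have := Fintype.ofFinite G
  have := Fintype.ofFinite (Cfsg.IrrCharacter G)
  rw [isRComb_iff]
  obtain ⟨m, -, hm⟩ := Cfsg.Agent.Lib.Helper80.character_expansion hf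
  exact ⟨fun χ => (m χ : ℂ), fun χ => Subalgebra.natCast_mem _ (m χ), hm⟩

/-- A class function whose inner products with the irreducible characters are algebraic
integers is an algebraic-integer combination of irreducible characters. -/
theorem isRComb_of_classInner [Fintype G] {f : G → ℂ} (hf : Cfsg.IsClassFunction G f)
    (h : ∀ χ : Cfsg.IrrCharacter G, Cfsg.classInner f (χ : G → ℂ) ∈ Cfsg.AlgInt) :
    IsRComb G f := by
  have := Fintype.ofFinite (Cfsg.IrrCharacter G)
  rw [isRComb_iff]
  exact ⟨fun χ => Cfsg.classInner f (χ : G → ℂ), h, classFunction_expansion' hf⟩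

/-- **Brauer's characterisation, algebraic-integer form**: a class function whose restriction
to every elementary subgroup is an algebraic-integer combination of irreducible characters is
itself one. -/
theorem isRComb_of_elementary [Fintype G] {ϑ : G → ℂ} (hϑ : Cfsg.IsClassFunction G ϑ)
    (hE : ∀ (E : Subgroup G) (p : ℕ), p.Prime → Cfsg.IsElementary p E →
      IsRComb E (fun e : E => ϑ e)) : IsRComb G ϑ := by
  classical
  have key : ∀ f ∈ indSpan (fun E : Subgroup G => ∃ p : ℕ, p.Prime ∧ Cfsg.IsElementary p E),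
      IsRComb G (f * ϑ) := by
    intro f hf
    unfold indSpan at hf
    induction hf using AddSubgroup.closure_induction with
    | mem f hf =>
      obtain ⟨H, ⟨p, hp, hH⟩, φ, hφ, rfl⟩ := hf
      have := Fintype.ofFinite (Cfsg.IrrCharacter H)
      have := Fintype.ofFinite H
      rw [indFun_mul H φ hϑ]
      obtain ⟨c, hc, hexp⟩ := isRComb_iff.mp (hE H p hp hH)
      have h1 : (φ * fun h : H => ϑ h) =
          ∑ ψ : Cfsg.IrrCharacter H, c ψ • (φ * (ψ : H → ℂ)) := by
        rw [hexp, Finset.mul_sum]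
        exact Finset.sum_congr rfl fun ψ _ => by rw [mul_smul_comm]
      rw [h1, indFun_sum]
      apply isRComb_sum
      intro ψ _
      rw [indFun_smul]
      apply isRComb_smul (hc ψ)
      apply isRComb_of_isCharacter
      exact Cfsg.Agent.Lib.Helper75.isCharacter_indFun H
        (Cfsg.Agent.Lib.Helper80.isCharacter_mul hφ (isCharacter_of_irr ψ.2))
    | zero => rw [zero_mul]; exact isRComb_zero
    | add a b _ _ iha ihb => rw [add_mul]; exact isRComb_add iha ihb
    | neg a _ ih => rw [neg_mul]; exact isRComb_neg ih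
  have h1 := key _ (one_mem_indSpan_elementary (G := G))
  have h2 : (fun _ : G => (1 : ℂ)) * ϑ = ϑ := by
    funext g
    simp
  rwa [h2] at h1

end

end Cfsg.Agent.Lib.Helper15
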